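import Cfsg.Agent.Lib.ElusQ.SqNeg

/-!
# Involutions of the projective group and odd-dimensional subspaces
-/

set_option autoImplicit false
set_option linter.unusedSectionVars false
set_option linter.style.haveILetI false
set_option linter.unusedVariables false
set_option linter.unusedSimpArgs false

open Polynomial Module QuadraticMap Matrix

universe u v w

namespace Cfsg.Agent.Lib.ElusQ.SqNegMain

open Cfsg Cfsg.Agent.Lib.ElusL.Basic Cfsg.Agent.Lib.ElusF.Form
  Cfsg.Agent.Lib.ElusF.Step Cfsg.Agent.Lib.ElusF.Split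
  Cfsg.Agent.Lib.ElusQ.Disc Cfsg.Agent.Lib.ElusQ.Oz Cfsg.Agent.Lib.ElusQ.Syl Cfsg.Agent.Lib.ElusQ.OddMain
  Cfsg.Agent.Lib.ElusQ.Pos Cfsg.Agent.Lib.ElusQ.EvenV Cfsg.Agent.Lib.ElusQ.OddW Cfsg.Agent.Lib.ElusQ.Bridge
  Cfsg.Agent.Lib.ElusQ.SqNeg
  Cfsg.Agent.Lib.Witt.Quadratic Cfsg.Agent.Lib.QuadDisc.Basic Cfsg.Agent.Lib.QuadDisc.Classify
  Cfsg.Agent.Lib.Orth.Refl Cfsg.Agent.Lib.Orth.Bridge Cfsg.Agent.Lib.Orth.Words Cfsg.Agent.Lib.Elusive.OmegaMem

variable {F : Type u} [Field F] [Fintype F]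

section Model

variable {ι : Type} [Fintype ι] [DecidableEq ι]

/-- The dot product. -/
noncomputable def dotI (ι : Type) [Fintype ι] (F : Type u) [Field F] : LinearMap.BilinForm F (ι → F) :=
  LinearMap.mk₂ F (fun u v => ∑ i, u i * v i)
    (fun x y z => by simp [add_mul, Finset.sum_add_distrib])
    (fun c x y => by simp [Finset.mul_sum, mul_assoc])
    (fun x y z => by simp [mul_add, Finset.sum_add_distrib])
    (fun c x y => by simp [Finset.mul_sum, mul_left_comm])

@[simp] theorem dotI_apply (u v : ι → F) : dotI ι F u v = ∑ i, u i * v i := rfl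

theorem toMatrix_dotI : LinearMap.BilinForm.toMatrix (Pi.basisFun F ι) (dotI ι F) = 1 := by
  ext i j
  simp [LinearMap.BilinForm.toMatrix_apply, Matrix.one_apply, Pi.single_apply, eq_comm]

theorem dotI_symm : (dotI ι F).IsSymm := ⟨fun x y => by
  simp only [RingHom.id_apply, dotI_apply]
  exact Finset.sum_congr rfl fun _ _ => mul_comm _ _⟩

theorem dotI_nondeg : (dotI ι F).Nondegenerate := by
  rw [nondegenerate_iff_det (Pi.basisFun F ι), toMatrix_dotI, Matrix.det_one]
  exact one_ne_zero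

/-- The rotation. -/
noncomputable def rotT (d : ℕ) (F : Type u) [Field F] : End F (Fin d ⊕ Fin d → F) where
  toFun u k := match k with
    | .inl j => - u (.inr j)
    | .inr j => u (.inl j)
  map_add' u v := by
    funext k
    rcases k with j | j
    · simp
      ring
    · simp
  map_smul' c u := by
    funext k
    rcases k with j | j
    · simp
    · simp

@[simp] theorem rotT_inl (d : ℕ) (u : Fin d ⊕ Fin d → F) (j : Fin d) : rotT d F u (.inl j) = - u (.inr j) := rfl
@[simp] theorem rotT_inr (d : ℕ) (u : Fin d ⊕ Fin d → F) (j : Fin d) : rotT d F u (.inr j) = u (.inl j) := rfl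

theorem rotT_sq (d : ℕ) (u : Fin d ⊕ Fin d → F) : rotT d F (rotT d F u) = - u := by
  funext k
  rcases k with j | j <;> simp

theorem rotT_iso (d : ℕ) (u v : Fin d ⊕ Fin d → F) : dotI _ F (rotT d F u) (rotT d F v) = dotI _ F u v := by
  simp only [dotI_apply, Fintype.sum_sum_type, rotT_inl, rotT_inr, neg_mul_neg]
  ring

variable {V : Type v} [AddCommGroup V] [Module F V] [FiniteDimensional F V]

/-- Existence of an isometry with square `-1` if the discriminant is a square. -/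
theorem exists_sqneg (h2 : (2 : F) ≠ 0) {Q : QuadraticForm F V} (hN : (polarBilin Q).Nondegenerate) {d : ℕ}
    (hd : finrank F V = 2 * d) (hs : IsSquare (dd (polarBilin Q) ⊤)) :
    ∃ T : End F V, (∀ u v, polarBilin Q (T u) (T v) = polarBilin Q u v) ∧ (∀ v, T (T v) = - v) := by
  classical
  have hdim : finrank F V = finrank F (Fin d ⊕ Fin d → F) := by
    rw [hd, Module.finrank_fintype_fun_eq_card]
    simp
    ring
  obtain ⟨u, hu, hu'⟩ := det_eq_dd_top (polarBilin Q)
  obtain ⟨v, hv, hv'⟩ := det_gram_change (finBasis F (Fin d ⊕ Fin d → F)) (Pi.basisFun F (Fin d ⊕ Fin d)) (dotI _ F)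
  rw [toMatrix_dotI, Matrix.det_one] at hv'
  obtain ⟨s, hs'⟩ := hs
  obtain ⟨g, hg⟩ := exists_isometry h2 (polarBilin Q) (dotI (Fin d ⊕ Fin d) F) hN dotI_nondeg (polar_symm Q) dotI_symm
    hdim (by
      rw [hu']
      refine ⟨u * s * v⁻¹, ?_⟩
      have h3 : (LinearMap.BilinForm.toMatrix (finBasis F (Fin d ⊕ Fin d → F)) (dotI _ F)).det = v⁻¹ * v⁻¹ := by
        field_simp
        linear_combination (-1 : F) * hv'
      rw [h3, hs']
      ring)
  have hpow : rotT d F ^ 4 = 1 := by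
    apply LinearMap.ext
    intro x
    simp only [pow_succ, pow_zero, one_mul, Module.End.mul_apply, rotT_sq, map_neg, neg_neg]
    rfl
  obtain ⟨T, hT, hTa, -, -⟩ := conj_of_equiv (polar_symm Q) hN g hg (rotT_iso d) hpow
  refine ⟨T, hT.iso, fun x => ?_⟩
  apply g.injective
  rw [hTa, hTa, rotT_sq, map_neg]

/-- Eigenspaces of an involution are flexible. -/
theorem exists_W_two {B : LinearMap.BilinForm F V} {T : End F V} (h : Oz B T 2) (h2 : (2 : F) ≠ 0)
    {m : ℕ} (hm1 : 1 ≤ m) (hmn : 2 * m < finrank F V) {ν : F} (hν : ν ≠ 0) :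
    ∃ W : Submodule F V, Nd (fun u v => B u v) W ∧ Inv T W ∧ finrank F W = m ∧ IsSquare (ν * dd B W) := by
  have hrF : ((2 : ℕ) : F) ≠ 0 := by exact_mod_cast h2
  have hn0 := nd_K0 h hrF
  have hn1 := nd_K1 h hrF
  have hsum := finrank_K h hrF
  have hK1T : ∀ v ∈ K1 T 2, T v = - v := by
    intro v hv
    have h3 : Polynomial.aeval T (Cfsg.Agent.Lib.ElusL.Cyc.Phi F 2) v = 0 := hv
    have h4 : Cfsg.Agent.Lib.ElusL.Cyc.Phi F 2 = X + 1 := by
      simp [Cfsg.Agent.Lib.ElusL.Cyc.Phi, Finset.sum_range_succ, add_comm]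
    rw [h4] at h3
    simp only [map_add, aeval_X, map_one, LinearMap.add_apply, Module.End.one_apply] at h3
    exact eq_neg_of_add_eq_zero_left h3
  have hinv1 : ∀ W : Submodule F V, W ≤ K1 T 2 → Inv T W := by
    intro W hW v hv
    rw [hK1T v (hW hv)]
    exact W.neg_mem hv
  by_cases hc : m < finrank F (K0 T)
  · obtain ⟨W, hW, hWn, hWd, hWs⟩ := exists_sub_dd h2 h.symm h.nondeg _ (K0 T) hn0 rfl m hm1 hc ν hν
    exact ⟨W, hWn, inv_of_le_K0 hW, hWd, hWs⟩
  · obtain ⟨W, hW, hWn, hWd, hWs⟩ := exists_sub_dd h2 h.symm h.nondeg _ (K1 T 2) hn1 rfl m hm1 (by omega) ν hν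
    exact ⟨W, hWn, hinv1 W hW, hWd, hWs⟩

variable (Q : QuadraticForm F (ι → F))

omit [DecidableEq ι] in
theorem finrank_ι : finrank F (ι → F) = Fintype.card ι := Module.finrank_fintype_fun_eq_card F

theorem card_ne_two (h2 : (2 : F) ≠ 0) : Fintype.card F ≠ 2 := by
  intro hcard
  apply h2
  have := FiniteField.cast_card_eq_zero F
  rw [hcard] at this
  exact_mod_cast this

theorem iso_of_mem (hN : (polarBilin Q).Nondegenerate) {x : GL ι F} (hx : x ∈ isometryGroup F ⇑Q) :
    ∀ u v, polarBilin Q (Matrix.toLin' (x : Matrix ι ι F) u) (Matrix.toLin' (x : Matrix ι ι F) v) = polarBilin Q u v :=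
  fun u v => polar_eq_of_preserves (Q := Q) (Matrix.toLin' (x : Matrix ι ι F))
    (fun w => by
      rw [Matrix.toLin'_apply]
      exact (mem_isometryGroup_iff _ _).mp hx w) u v

/-- When an isometry with square `-1` lies in `Ω`. -/
theorem omega_iff_sqneg (hN : (polarBilin Q).Nondegenerate) (h2 : (2 : F) ≠ 0) {d : ℕ}
    (hcard : Fintype.card ι = 2 * d) {x : GL ι F} (hx : x ∈ isometryGroup F ⇑Q)
    (hsq : ∀ v, Matrix.toLin' (x : Matrix ι ι F) (Matrix.toLin' (x : Matrix ι ι F) v) = - v) :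
    x ∈ Cfsg.Geo.omegaGL ⇑Q ↔ IsSquare ((2 : F) ^ d) := by
  obtain ⟨-, -, vs, hvs, hlen, hact, -, k, c, hk, hc, hprod⟩ :=
    sqneg_struct hN h2 (iso_of_mem Q hN hx) hsq _ ⊤ (fm_of_symm (polar_symm Q) hN).nd_top (fun _ _ => trivial) rfl
  rw [finrank_top, finrank_ι, hcard] at hk
  have hkd : k = d := by omega
  subst hkd
  have hgw : (x : Matrix ι ι F) = (vs.map (fun v => reflectionMatrix ⇑Q v)).prod := by
    apply mat_eq_of_mulVec
    intro y
    rw [word_mulVec, hact y trivial]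
    rfl
  rw [mem_omegaGL_iff]
  have hQ : ∀ v ∈ vs, Q v ≠ 0 := fun v hv => (hvs v hv).2
  constructor
  · rintro ⟨hx', hm⟩
    have := (word_mem_Omega_iff Q hN (Or.inl (card_ne_two h2)) ⟨x, hx'⟩ vs hQ hgw).mp hm
    have h3 := this.2
    rw [hprod] at h3
    have h4 : (2 : F) ^ k * (c * c) = c * c * (2 ^ k) := by ring
    rwa [h4, isSquare_mul_self_mul hc] at h3
  · intro hs
    refine ⟨hx, (word_mem_Omega_iff Q hN (Or.inl (card_ne_two h2)) ⟨x, hx⟩ vs hQ hgw).mpr ⟨?_, ?_⟩⟩
    · rw [hlen, finrank_top, finrank_ι, hcard]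
      exact even_two_mul _
    · rw [hprod]
      have h4 : (2 : F) ^ k * (c * c) = c * c * (2 ^ k) := by ring
      rwa [h4, isSquare_mul_self_mul hc]

theorem scalar_of_sq (hN : (polarBilin Q).Nondegenerate) (h2 : (2 : F) ≠ 0) (hpos : 0 < Fintype.card ι)
    {x : GL ι F} (hx : x ∈ isometryGroup F ⇑Q) {k : ℕ} {z : F}
    (hz : ((x ^ k : GL ι F) : Matrix ι ι F) = z • (1 : Matrix ι ι F)) : z = 1 ∨ z = -1 := by
  have hS := polar_symm Q
  obtain ⟨e, he⟩ := exists_self_ne_zero h2 (polarBilin Q) hN hS (by rw [finrank_ι]; exact hpos)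
  have hp := (isometryGroup F ⇑Q).pow_mem hx k
  have h1 := iso_of_mem Q hN hp e e
  rw [hz] at h1
  have h3 : Matrix.toLin' (z • (1 : Matrix ι ι F)) e = z • e := by
    rw [Matrix.toLin'_apply, Matrix.smul_mulVec, Matrix.one_mulVec]
  rw [h3] at h1
  simp only [map_smul, LinearMap.smul_apply, smul_eq_mul] at h1
  have h4 : (z * z - 1) * polarBilin Q e e = 0 := by
    linear_combination h1
  have h5 := (mul_eq_zero.mp h4).resolve_right he
  have h6 : (z - 1) * (z + 1) = 0 := by linear_combination h5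
  rcases mul_eq_zero.mp h6 with h7 | h7
  · exact Or.inl (sub_eq_zero.mp h7)
  · exact Or.inr (eq_neg_of_add_eq_zero_left h7)

/-- The main theorem on projective involutions and odd-dimensional spaces. -/
theorem two_iff (hN : (polarBilin Q).Nondegenerate) (h2 : (2 : F) ≠ 0) {d : ℕ} (hcard : Fintype.card ι = 2 * d)
    {m : ℕ} (hm : Odd m) (hmd : m < d) {ν : F} (hν : ν ≠ 0) :
    (∀ x : GL ι F, x ∈ Cfsg.Geo.omegaGL ⇑Q →
      (∃ z : F, ((x ^ 2 : GL ι F) : Matrix ι ι F) = z • (1 : Matrix ι ι F)) →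
      (∀ z : F, (x : Matrix ι ι F) ≠ z • (1 : Matrix ι ι F)) →
      ∃ W, PD Q m ν W ∧ Inv (Matrix.toLin' (x : Matrix ι ι F)) W) ↔
    ¬ (IsSquare (dd (polarBilin Q) ⊤) ∧ IsSquare ((2 : F) ^ d)) := by
  have hS := polar_symm Q
  have hdim : finrank F (ι → F) = 2 * d := by rw [finrank_ι, hcard]
  constructor
  · rintro H ⟨h1, h3⟩
    obtain ⟨T, hT, hT2⟩ := exists_sqneg h2 hN hdim h1
    have hXT : Matrix.toLin' (LinearMap.toMatrix' T) = T := Matrix.toLin'_toMatrix' T
    have hT4 : T ^ 4 = 1 := by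
      apply LinearMap.ext
      intro v
      simp only [pow_succ, pow_zero, one_mul, Module.End.mul_apply, hT2, map_neg, neg_neg]
      rfl
    have hX4 : (LinearMap.toMatrix' T) ^ 4 = 1 := by
      rw [toMatrix_pow, hT4]
      exact LinearMap.toMatrix'_one
    let x : GL ι F := glOfPow (LinearMap.toMatrix' T) 4 (by norm_num) hX4
    have hxT : Matrix.toLin' (x : Matrix ι ι F) = T := hXT
    have hxi : x ∈ isometryGroup F ⇑Q := by
      rw [mem_isometryGroup_iff]
      intro v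
      have h5 := hT v v
      rw [Cfsg.Agent.Lib.ElusQ.Syl.polar_self', Cfsg.Agent.Lib.ElusQ.Syl.polar_self'] at h5
      have h6 := mul_left_cancel₀ h2 h5
      rw [← Matrix.toLin'_apply, hxT]
      exact h6
    have hΩ : x ∈ Cfsg.Geo.omegaGL ⇑Q := (omega_iff_sqneg Q hN h2 hcard hxi (by
      rw [hxT]
      exact hT2)).mpr h3
    have hsc : ((x ^ 2 : GL ι F) : Matrix ι ι F) = (-1 : F) • (1 : Matrix ι ι F) := by
      rw [Units.val_pow_eq_pow_val]
      apply Matrix.toLin'.injective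
      apply LinearMap.ext
      intro v
      rw [← Cfsg.Agent.Lib.ElusQ.Bridge.toLin_pow, hxT]
      simp only [pow_succ, pow_zero, one_mul, Module.End.mul_apply, hT2]
      rw [Matrix.toLin'_apply, Matrix.smul_mulVec, Matrix.one_mulVec, neg_one_smul]
    have hns : ∀ z : F, (x : Matrix ι ι F) ≠ z • (1 : Matrix ι ι F) := by
      intro z hz
      obtain ⟨e, he⟩ := exists_self_ne_zero h2 (polarBilin Q) hN hS (by rw [hdim]; omega)
      have hTe : T e = z • e := by
        rw [← hxT, hz, Matrix.toLin'_apply, Matrix.smul_mulVec, Matrix.one_mulVec]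
      have h5 := hT e (T e)
      rw [hT2, map_neg, hS.eq (T e) e] at h5
      have h6 : (2 : F) * polarBilin Q e (T e) = 0 := by
        rw [two_mul]
        nth_rewrite 1 [← h5]
        ring
      have h7 := (mul_eq_zero.mp h6).resolve_left h2
      rw [hTe] at h7
      simp only [map_smul, smul_eq_mul] at h7
      have hz0 : z = 0 := (mul_eq_zero.mp h7).resolve_right he
      have h8 := hT2 e
      rw [hTe, hz0, zero_smul, map_zero] at h8
      have h9 : e = 0 := neg_eq_zero.mp h8.symm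
      rw [h9] at he
      simp at he
    obtain ⟨W, ⟨hWd, hWn, -⟩, hWi⟩ := H x hΩ ⟨_, hsc⟩ hns
    rw [hxT] at hWi
    have h5 := even_of_sqneg hN h2 hT hT2 hWn hWi
    rw [hWd] at h5
    exact (Nat.not_even_iff_odd.mpr hm) h5
  · rintro hs x hΩ ⟨z, hz⟩ hns
    obtain ⟨hxi, -⟩ := (mem_omegaGL_iff _ x).mp hΩ
    rcases scalar_of_sq Q hN h2 (by omega) hxi hz with rfl | rfl
    · have hx2 : x ^ 2 = 1 := by
        apply Units.ext
        rw [hz]
        simp
      obtain ⟨W, h3, h4, h5, h6⟩ := exists_W_two (oz_of_mem Q hN hxi hx2) h2 hm.pos (m := m) (by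
        rw [hdim]
        omega) hν
      exact ⟨W, ⟨h5, h3, h6⟩, h4⟩
    · exfalso
      have hsq : ∀ v, Matrix.toLin' (x : Matrix ι ι F) (Matrix.toLin' (x : Matrix ι ι F) v) = - v := by
        intro v
        have h3 : Matrix.toLin' ((x : Matrix ι ι F) ^ 2) v = - v := by
          rw [← Units.val_pow_eq_pow_val, hz, Matrix.toLin'_apply, Matrix.smul_mulVec, Matrix.one_mulVec,
            neg_one_smul]
        rw [← h3, ← Cfsg.Agent.Lib.ElusQ.Bridge.toLin_pow]
        simp only [pow_succ, pow_zero, one_mul, Module.End.mul_apply]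
      apply hs
      exact ⟨dd_top_of_sqneg hN h2 (iso_of_mem Q hN hxi) hsq, (omega_iff_sqneg Q hN h2 hcard hxi hsq).mp hΩ⟩

end Model

end Cfsg.Agent.Lib.ElusQ.SqNegMain
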