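import Cfsg.Agent.Lib.ElusQ.OddWThm
import Cfsg.Agent.Lib.Classical.OmegaForms

/-!
# The final statement on odd-dimensional subspaces of even-dimensional quadratic spaces
-/

set_option autoImplicit false
set_option linter.unusedSectionVars false
set_option linter.style.haveILetI false
set_option linter.unusedVariables false
set_option linter.unusedSimpArgs false

open Polynomial Module QuadraticMap Matrix

universe u v w

namespace Cfsg.Agent.Lib.ElusQ.OddWFinal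

open Cfsg Cfsg.Agent.Lib.ElusL.Basic Cfsg.Agent.Lib.ElusF.Form
  Cfsg.Agent.Lib.ElusQ.Disc Cfsg.Agent.Lib.ElusQ.Oz Cfsg.Agent.Lib.ElusQ.Syl Cfsg.Agent.Lib.ElusQ.OddMain
  Cfsg.Agent.Lib.ElusQ.Pos Cfsg.Agent.Lib.ElusQ.EvenV Cfsg.Agent.Lib.ElusQ.OddW Cfsg.Agent.Lib.ElusQ.Bridge
  Cfsg.Agent.Lib.ElusQ.OddThm Cfsg.Agent.Lib.ElusQ.OddWThm Cfsg.Agent.Lib.ElusQ.SqNegMain
  Cfsg.Agent.Lib.Orth.Forms

variable {F : Type u} [Field F] [Fintype F] {q : ℕ}

section Main

variable {ι : Type} [Fintype ι] [DecidableEq ι] (Q : QuadraticForm F (ι → F))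
variable {p : ℕ} [hp : Fact p.Prime] [CharP F p]

/-- The general theorem. -/
theorem final_iff (hN : (polarBilin Q).Nondegenerate) (h2 : (2 : F) ≠ 0) (hq : Fintype.card F = q)
    {d m : ℕ} (hd : 3 ≤ d) (hcard : Fintype.card ι = 2 * d) (hm : Odd m) (hmd : m < d)
    {W₀ : Submodule F (ι → F)}
    (hW₀ : finrank F W₀ = m ∧ Cfsg.Geo.IsNondegenerateOn (polar ⇑Q) W₀)
    (r : ℕ) (hr : r.Prime)
    (hrΩ : r ∣ Nat.card {W : Submodule F (ι → F) // finrank F W = m ∧ Cfsg.Geo.IsNondegenerateOn (polar ⇑Q) W ∧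
      Cfsg.Geo.AreIsometricFor ⇑Q W W₀}) :
    (∀ x : GL ι F, x ∈ Cfsg.Geo.omegaGL ⇑Q →
      (∃ z : F, ((x ^ r : GL ι F) : Matrix ι ι F) = z • (1 : Matrix ι ι F)) →
      (∀ z : F, (x : Matrix ι ι F) ≠ z • (1 : Matrix ι ι F)) →
      ∃ W : Submodule F (ι → F), (finrank F W = m ∧ Cfsg.Geo.IsNondegenerateOn (polar ⇑Q) W ∧
        Cfsg.Geo.AreIsometricFor ⇑Q W W₀) ∧ W.map (Matrix.toLin' (x : Matrix ι ι F)) ≤ W) ↔
    ((r = 2 ∧ ¬ (IsSquare (dd (polarBilin Q) ⊤) ∧ IsSquare ((2 : F) ^ d))) ∨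
      (r ≠ p ∧ 2 < r ∧ ((2 * d % cOf (orderOf (q : ZMod r)) = 0 ∧
          ¬ TypeE (2 * d) (orderOf (q : ZMod r)) (Hy (polarBilin Q) ⊤)) ∨
        (cOf (orderOf (q : ZMod r)) ≤ m ∧
          m % cOf (orderOf (q : ZMod r)) < 2 * d % cOf (orderOf (q : ZMod r)))))) := by
  have hS := polar_symm Q
  have hW₀' : Nd (fun u v => polarBilin Q u v) W₀ := (isNondeg_iff Q W₀).mp hW₀.2
  have hν : dd (polarBilin Q) W₀ ≠ 0 := dd_ne_zero hS hW₀'
  have hdim : finrank F (ι → F) = 2 * d := by rw [finrank_ι, hcard]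
  have hcls := cls_iff Q hN h2 hW₀' hW₀.1
  have hrΩ' : r ∣ Nat.card {W // PD Q m (dd (polarBilin Q) W₀) W} := by
    have : Nat.card {W // PD Q m (dd (polarBilin Q) W₀) W} = Nat.card {W : Submodule F (ι → F) //
        finrank F W = m ∧ Cfsg.Geo.IsNondegenerateOn (polar ⇑Q) W ∧ Cfsg.Geo.AreIsometricFor ⇑Q W W₀} :=
      Nat.card_congr (Equiv.subtypeEquivRight fun W => (hcls W).symm)
    rw [this]
    exact hrΩ
  have hL : (∀ x : GL ι F, x ∈ Cfsg.Geo.omegaGL ⇑Q →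
      (∃ z : F, ((x ^ r : GL ι F) : Matrix ι ι F) = z • (1 : Matrix ι ι F)) →
      (∀ z : F, (x : Matrix ι ι F) ≠ z • (1 : Matrix ι ι F)) →
      ∃ W : Submodule F (ι → F), (finrank F W = m ∧ Cfsg.Geo.IsNondegenerateOn (polar ⇑Q) W ∧
        Cfsg.Geo.AreIsometricFor ⇑Q W W₀) ∧ W.map (Matrix.toLin' (x : Matrix ι ι F)) ≤ W) ↔
      (∀ x : GL ι F, x ∈ Cfsg.Geo.omegaGL ⇑Q →
      (∃ z : F, ((x ^ r : GL ι F) : Matrix ι ι F) = z • (1 : Matrix ι ι F)) →
      (∀ z : F, (x : Matrix ι ι F) ≠ z • (1 : Matrix ι ι F)) →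
      ∃ W, PD Q m (dd (polarBilin Q) W₀) W ∧ Inv (Matrix.toLin' (x : Matrix ι ι F)) W) := by
    refine forall_congr' fun x => forall_congr' fun _ => forall_congr' fun _ => forall_congr' fun _ =>
      exists_congr fun W => ?_
    exact and_congr (hcls W) (map_le_iff _ W)
  rw [hL]
  have hp2 : p ≠ 2 := by
    intro h
    apply h2
    have h3 : ((p : ℕ) : F) = 0 := CharP.cast_eq_zero F p
    rw [h] at h3
    exact_mod_cast h3
  have hp3 : 3 ≤ p := by
    have := hp.out.two_le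
    omega
  by_cases hrp : r = p
  · subst hrp
    constructor
    · intro H
      exact absurd H (rp_iff (p := r) Q h2 hp3 hN hdim hd hm hν)
    · rintro (⟨h, -⟩ | ⟨h, -⟩)
      · omega
      · exact absurd rfl h
  by_cases hr2 : r = 2
  · subst hr2
    rw [two_iff Q hN h2 hcard hm hmd hν]
    constructor
    · intro h
      exact Or.inl ⟨rfl, h⟩
    · rintro (⟨_, h⟩ | ⟨_, h, _⟩)
      · exact h
      · omega
  · have hr3 : 2 < r := lt_of_le_of_ne hr.two_le (Ne.symm hr2)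
    rw [oddW_iff Q hN h2 hq hr hr2 (r_ne_zero hr hrp) (not_dvd_q hq hr hrp) (by omega)
      (by rw [hdim]; exact ⟨d, by ring⟩) hm (by omega) hν hrΩ', hdim]
    constructor
    · intro h
      exact Or.inr ⟨hrp, hr3, h⟩
    · rintro (⟨h, _⟩ | ⟨_, _, h⟩)
      · exact absurd h hr2
      · exact h

end Main

/-- The positive form has a half-dimensional totally isotropic subspace. -/
theorem hy_plus (d : ℕ) : Hy (polarBilin (plusForm d F)) ⊤ := by
  classical
  let e : (Fin d → F) →ₗ[F] (Fin d ⊕ Fin d → F) :=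
    { toFun := fun v => Sum.elim v 0
      map_add' := by
        intro x y
        ext j
        cases j <;> simp
      map_smul' := by
        intro c x
        ext j
        cases j <;> simp }
  have he : Function.Injective e := by
    intro x y h
    ext j
    have := congrFun h (Sum.inl j)
    simpa [e] using this
  refine ⟨LinearMap.range e, le_top, ?_, ?_⟩
  · rintro _ ⟨x, rfl⟩ _ ⟨y, rfl⟩
    change polar (⇑(plusForm d F)) _ _ = 0
    simp only [polar, coe_plusForm]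
    simp [Cfsg.quadFormPlus, e]
  · rw [LinearMap.finrank_range_of_inj he]
    simp
    ring

/-- The negative form has no half-dimensional totally isotropic subspace. -/
theorem not_hy_minus {k : ℕ} {a b : F} (h2 : (2 : F) ≠ 0)
    (hab : ∀ x y : F, x ^ 2 + a * x * y + b * y ^ 2 = 0 → x = 0 ∧ y = 0) :
    ¬ Hy (polarBilin (minusForm k F a b)) ⊤ := by
  rintro ⟨X, -, hX, hd⟩
  rw [finrank_top] at hd
  refine Cfsg.Agent.Lib.Classical.OmegaForms.no_half_minus hab X (fun x hx => ?_) hd.symm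
  have h3 := hX x hx x hx
  rw [Cfsg.Agent.Lib.ElusQ.Syl.polar_self'] at h3
  exact (mul_eq_zero.mp h3).resolve_left h2

end Cfsg.Agent.Lib.ElusQ.OddWFinal
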