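import Cfsg.Agent.Lib.ElusQ.EvenV

/-!
# Odd-dimensional nondegenerate subspaces of even-dimensional quadratic spaces
-/

set_option autoImplicit false
set_option linter.unusedSectionVars false
set_option linter.style.haveILetI false
set_option linter.unusedVariables false
set_option linter.unusedSimpArgs false

open Polynomial Module QuadraticMap Matrix

universe u v w

namespace Cfsg.Agent.Lib.ElusQ.OddW

open Cfsg Cfsg.Agent.Lib.ElusL.Basic Cfsg.Agent.Lib.ElusL.Cyc Cfsg.Agent.Lib.ElusF.Form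
  Cfsg.Agent.Lib.ElusF.Step Cfsg.Agent.Lib.ElusF.Split Cfsg.Agent.Lib.ElusF.SpModel
  Cfsg.Agent.Lib.ElusQ.Disc Cfsg.Agent.Lib.ElusQ.Oz Cfsg.Agent.Lib.ElusQ.Syl Cfsg.Agent.Lib.ElusQ.OddMain
  Cfsg.Agent.Lib.ElusQ.Pos Cfsg.Agent.Lib.ElusQ.Model Cfsg.Agent.Lib.ElusQ.EvenV
  Cfsg.Agent.Lib.Witt.Quadratic Cfsg.Agent.Lib.QuadDisc.Basic Cfsg.Agent.Lib.QuadDisc.Classify

variable {F : Type u} [Field F] [Fintype F] {q r : ℕ} {V : Type v} [AddCommGroup V] [Module F V]
  [FiniteDimensional F V]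

/-- Nondegenerate subspaces with a given dimension and discriminant. -/
def PD (Q : QuadraticForm F V) (m : ℕ) (ν : F) (W : Submodule F V) : Prop :=
  finrank F W = m ∧ Nd (fun u v => polarBilin Q u v) W ∧ IsSquare (ν * dd (polarBilin Q) W)

theorem dd_of_iso (B : LinearMap.BilinForm F V) {W W' : Submodule F V} (φ : W ≃ₗ[F] W')
    (hφ : ∀ x y, B (φ x : V) (φ y : V) = B (x : V) (y : V)) :
    ∃ u : F, u ≠ 0 ∧ dd B W = u * u * dd B W' := by
  classical
  obtain ⟨u, hu, h⟩ := dd_basis (B := B) ((finBasis F W).map φ)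
  refine ⟨u, hu, ?_⟩
  rw [← h]
  unfold dd
  congr 1
  ext i j
  simp only [LinearMap.BilinForm.toMatrix_apply, Basis.map_apply]
  exact (hφ _ _).symm

theorem pd_map {Q : QuadraticForm F V} {m : ℕ} {ν : F} (g : V ≃ₗ[F] V) (hg : g ∈ isoGroup Q)
    {W : Submodule F V} (h : PD Q m ν W) : PD Q m ν (W.map (g : V →ₗ[F] V)) := by
  refine ⟨by rw [LinearEquiv.finrank_map_eq, h.1], nd_map g hg h.2.1, ?_⟩
  obtain ⟨u, hu, hu'⟩ := dd_of_iso (polarBilin Q) (g.submoduleMap W) (fun x y => by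
    exact polar_iso (Q := Q) ⟨g, hg⟩ x y)
  have h3 := h.2.2
  rw [hu'] at h3
  have : ν * (u * u * dd (polarBilin Q) (W.map (g : V →ₗ[F] V))) =
      u * u * (ν * dd (polarBilin Q) (W.map (g : V →ₗ[F] V))) := by ring
  rw [this, isSquare_mul_self_mul hu] at h3
  exact h3

theorem pd_trans {Q : QuadraticForm F V} (hN : (polarBilin Q).Nondegenerate) (h2 : (2 : F) ≠ 0) {m : ℕ} {ν : F}
    (hν : ν ≠ 0) {W W' : Submodule F V} (h : PD Q m ν W) (h' : PD Q m ν W') :
    ∃ g : V ≃ₗ[F] V, g ∈ isoGroup Q ∧ W.map (g : V →ₗ[F] V) = W' := by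
  obtain ⟨φ, hφ⟩ := exists_iso_of_dd h2 (polar_symm Q) h.2.1 h'.2.1 (h.1.trans h'.1.symm) (by
    obtain ⟨s, hs⟩ := h.2.2
    obtain ⟨t, ht⟩ := h'.2.2
    rw [← isSquare_mul_self_mul hν]
    refine ⟨s * t, ?_⟩
    linear_combination (t * t) * hs + (ν * dd (polarBilin Q) W) * ht)
  exact trans_of_iso hN h2 φ hφ

/-- A `r`-group fixes a member of the family if the dimension is small. -/
theorem not_dvd_small_pd {Q : QuadraticForm F V} (hN : (polarBilin Q).Nondegenerate) (h2 : (2 : F) ≠ 0)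
    (hq : Fintype.card F = q) (hr : r.Prime) (hr2 : r ≠ 2) (hrF : (r : F) ≠ 0) (hrq : ¬ r ∣ q)
    (hi1 : orderOf (q : ZMod r) ≠ 1) {m : ℕ} (hm : 1 ≤ m) {ν : F} (hν : ν ≠ 0)
    (ht : m < finrank F V % cOf (orderOf (q : ZMod r))) :
    ¬ r ∣ Nat.card {W // PD Q m ν W} := by
  haveI : Fact r.Prime := ⟨hr⟩
  apply not_dvd_of_fixed Q (PD Q m ν) (fun g hg W h => pd_map g hg h)
    (fun W W' h h' => pd_trans hN h2 hν h h')
  intro S hS
  obtain ⟨hC, k, hk⟩ := syl_dim hN h2 hq hr hr2 hrF hrq hi1 hS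
  have hle : m < finrank F (fixSub Q S) := by
    have h3 : finrank F V % cOf (orderOf (q : ZMod r)) = finrank F (fixSub Q S) % cOf (orderOf (q : ZMod r)) := by
      rw [hk, Nat.add_mul_mod_self_left]
    rw [h3] at ht
    exact lt_of_lt_of_le ht (Nat.mod_le _ _)
  obtain ⟨W, hWC, hW, hWd, hs⟩ := exists_sub_dd h2 (polar_symm Q) hN _ (fixSub Q S) hC rfl m hm hle ν hν
  refine ⟨W, ⟨hWd, hW, hs⟩, ?_⟩
  intro g hg
  apply le_antisymm
  · rintro _ ⟨x, hx, rfl⟩
    change ((g : isoGroup Q) : V ≃ₗ[F] V) x ∈ W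
    rw [hWC hx g hg]
    exact hx
  · intro x hx
    refine ⟨x, hx, ?_⟩
    exact hWC hx g hg

/-- Building invariant subspaces with prescribed discriminant. -/
theorem exists_W_dd {B : LinearMap.BilinForm F V} {T : End F V} (h : Oz B T r) (h2 : (2 : F) ≠ 0)
    (hq : Fintype.card F = q) (hr : r.Prime) (hr2 : r ≠ 2)
    (hrF : (r : F) ≠ 0) (hrq : ¬ r ∣ q) {s u m : ℕ}
    (hs : cOf (orderOf (q : ZMod r)) * s ≤ finrank F (K1 T r)) (hu1 : 1 ≤ u) (hu2 : u < finrank F (K0 T))
    (hm : u + cOf (orderOf (q : ZMod r)) * s = m) {ν : F} (hν : ν ≠ 0) :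
    ∃ W : Submodule F V, Nd (fun u v => B u v) W ∧ Inv T W ∧ finrank F W = m ∧ IsSquare (ν * dd B W) := by
  obtain ⟨U, hU₁, hU, hUi, hUd⟩ := exists_blocks h h2 hq hr hr2 hrF hrq s hs
  have hdU := dd_ne_zero h.symm hU
  obtain ⟨W, hW0, hWn, hWd, hWs⟩ := exists_sub_dd h2 h.symm h.nondeg _ (K0 T) (nd_K0 h hrF) rfl u hu1 hu2
    (ν * dd B U) (mul_ne_zero hν hdU)
  have horth : ∀ x ∈ W, ∀ y ∈ U, B x y = 0 := fun x hx y hy => orth_K h hrF x (hW0 hx) y (hU₁ hy)
  have hdis : Disjoint W U := by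
    rw [Submodule.disjoint_def]
    intro v hv hv'
    exact hWn v hv (fun x hx => by
      change B v x = 0
      rw [h.symm.eq]
      exact horth x hx v hv')
  refine ⟨W ⊔ U, nd_sup h.fm hWn hU (fun y hy x hx => horth x hx y hy),
    inv_sup (inv_of_le_K0 hW0) hUi, ?_, ?_⟩
  · rw [finrank_sup_of_disjoint' hdis, hWd, hUd, hm]
  · obtain ⟨a, ha, ha'⟩ := dd_sup (B := B) hdis horth (fun x hx y hy => by
      rw [h.symm.eq]
      exact horth x hx y hy)
    rw [ha']
    have : ν * (a * a * (dd B W * dd B U)) = a * a * (ν * dd B U * dd B W) := by ring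
    rw [this, isSquare_mul_self_mul ha]
    exact hWs

/-- When a space without fixed points of the model type exists. -/
def TypeE (n i : ℕ) (τ : Prop) : Prop := (Odd i → τ) ∧ (Even i → (Even (n / i) ↔ τ))

/-- If there are no fixed vectors then the type is known. -/
theorem typeE_of_no_fixed {B : LinearMap.BilinForm F V} {T : End F V} (h : Oz B T r) (h2 : (2 : F) ≠ 0)
    (hq : Fintype.card F = q) (hr : r.Prime) (hr2 : r ≠ 2) (hrF : (r : F) ≠ 0) (hrq : ¬ r ∣ q)
    (h0 : finrank F (K0 T) = 0) : TypeE (finrank F V) (orderOf (q : ZMod r)) (Hy B ⊤) := by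
  have hsum := finrank_K h hrF
  have htop : (⊤ : Submodule F V) ≤ K1 T r := by
    intro v _
    have h1 : K1 T r = ⊤ := Submodule.eq_top_of_finrank_eq (by omega)
    rw [h1]
    trivial
  have hnd : Nd (fun u v => B u v) (⊤ : Submodule F V) := h.fm.nd_top
  have hi : (⊤ : Submodule F V) = ⊤ := rfl
  refine ⟨fun ho => hy_odd h h2 hq hr (hr.odd_of_ne_two hr2) hrF hrq ho htop hnd (fun _ _ => trivial), fun he => ?_⟩
  obtain ⟨e, he'⟩ := he
  have hipos := ord_pos (q := q) hr hrq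
  have hi2 : orderOf (q : ZMod r) = 2 * e := by omega
  have hc : cOf (orderOf (q : ZMod r)) = orderOf (q : ZMod r) := by
    unfold cOf
    rw [if_pos ⟨e, he'⟩]
  obtain ⟨k, hk⟩ := c_dvd h h2 hq hr (hr.odd_of_ne_two hr2) hrF hrq (nd_K1 h hrF) (inv_ker T _) le_rfl
  rw [hc] at hk
  have hn : finrank F V = orderOf (q : ZMod r) * k := by omega
  have hdiv : finrank F V / orderOf (q : ZMod r) = k := by
    rw [hn]
    exact Nat.mul_div_cancel_left _ hipos
  rw [hdiv]
  exact (hy_even h h2 hq hr hr2 hrF hrq (s := k) hi2 (by omega) htop hnd (fun _ _ => trivial) (by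
    rw [finrank_top, hn, hi2])).symm

/-- The backward direction. -/
theorem oddW_backward {Q : QuadraticForm F V} (hN : (polarBilin Q).Nondegenerate) (h2 : (2 : F) ≠ 0)
    (hq : Fintype.card F = q) (hr : r.Prime) (hr2 : r ≠ 2) (hrF : (r : F) ≠ 0) (hrq : ¬ r ∣ q)
    (hev : Even (finrank F V)) {m : ℕ} (hm : Odd m) (hmn : m < finrank F V) {ν : F} (hν : ν ≠ 0)
    (hcase : (finrank F V % cOf (orderOf (q : ZMod r)) = 0 ∧
        ¬ TypeE (finrank F V) (orderOf (q : ZMod r)) (Hy (polarBilin Q) ⊤)) ∨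
      m % cOf (orderOf (q : ZMod r)) < finrank F V % cOf (orderOf (q : ZMod r)))
    {T : End F V} (hT : Oz (polarBilin Q) T r) : ∃ W, PD Q m ν W ∧ Inv T W := by
  classical
  set i := orderOf (q : ZMod r) with hi
  have hipos : 0 < i := ord_pos hr hrq
  set c := cOf i with hc
  have hc0 : 0 < c := cOf_pos hipos
  have hce : Even c := even_cOf i
  set n := finrank F V with hn
  have hsum := finrank_K hT hrF
  obtain ⟨k, hk⟩ := c_dvd hT h2 hq hr (hr.odd_of_ne_two hr2) hrF hrq (nd_K1 hT hrF) (inv_ker T _) le_rfl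
  rw [← hi, ← hc] at hk
  set a := finrank F (K0 T) with ha
  have hna : n = a + c * k := by
    rw [hn, hsum, hk]
  have hmoda : n % c = a % c := by
    rw [hna, Nat.add_mul_mod_self_left]
  have hale : n % c ≤ a := by
    rw [hmoda]
    exact Nat.mod_le _ _
  have hagt : m % c < a := by
    rcases hcase with ⟨h0, hE⟩ | hlt
    · have ha0 : a ≠ 0 := by
        intro ha0
        exact hE (typeE_of_no_fixed hT h2 hq hr hr2 hrF hrq ha0)
      have hca : c ≤ a := by
        have h1 : a % c = 0 := by rw [← hmoda, h0]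
        have h3 : c ∣ a := Nat.dvd_of_mod_eq_zero h1
        exact Nat.le_of_dvd (Nat.pos_of_ne_zero ha0) h3
      exact lt_of_lt_of_le (Nat.mod_lt _ hc0) hca
    · omega
  have hm' := Nat.mod_add_div m c
  set s := min (m / c) k with hs
  have hsc : s ≤ m / c := min_le_left _ _
  have hsk : s ≤ k := min_le_right _ _
  have hle : c * s ≤ c * (m / c) := Nat.mul_le_mul_left c hsc
  have hle₁ : c * s ≤ c * k := Nat.mul_le_mul_left c hsk
  have hne : 1 ≤ m - c * s := by
    by_contra hcon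
    push Not at hcon
    have h4 : m = c * s := by omega
    obtain ⟨b, hb⟩ := hm
    obtain ⟨e, he⟩ := hce
    rw [he] at h4
    have : m = 2 * (e * s) := by rw [h4]; ring
    omega
  have hlt : m - c * s < a := by
    by_cases hdk : m / c ≤ k
    · have hss : s = m / c := min_eq_left hdk
      rw [hss]
      omega
    · have hss : s = k := min_eq_right (by omega)
      rw [hss]
      omega
  obtain ⟨W, h1, h3, h4, h5⟩ := exists_W_dd hT h2 hq hr hr2 hrF hrq (s := s) (u := m - c * s) (m := m)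
    (by
      rw [← hi, ← hc, hk]
      exact hle₁) hne hlt (by
      rw [← hi, ← hc]
      omega) hν
  exact ⟨W, ⟨h4, h1, h5⟩, h3⟩

/-- The forward direction. -/
theorem oddW_forward {Q : QuadraticForm F V} (hN : (polarBilin Q).Nondegenerate) (h2 : (2 : F) ≠ 0)
    (hq : Fintype.card F = q) (hr : r.Prime) (hr2 : r ≠ 2) (hrF : (r : F) ≠ 0) (hrq : ¬ r ∣ q)
    (hev : Even (finrank F V)) {m : ℕ} (hm : Odd m) (hmn : m < finrank F V) {ν : F} (hν : ν ≠ 0)
    (hdvd : r ∣ Nat.card {W // PD Q m ν W})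
    (hL : ∀ T : End F V, Oz (polarBilin Q) T r → T ≠ 1 → ∃ W, PD Q m ν W ∧ Inv T W) :
    (finrank F V % cOf (orderOf (q : ZMod r)) = 0 ∧
        ¬ TypeE (finrank F V) (orderOf (q : ZMod r)) (Hy (polarBilin Q) ⊤)) ∨
      (cOf (orderOf (q : ZMod r)) ≤ m ∧
        m % cOf (orderOf (q : ZMod r)) < finrank F V % cOf (orderOf (q : ZMod r))) := by
  classical
  set i := orderOf (q : ZMod r) with hi
  have hipos : 0 < i := ord_pos hr hrq
  set c := cOf i with hc
  have hc0 : 0 < c := cOf_pos hipos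
  have hce : Even c := even_cOf i
  set n := finrank F V with hn
  have hm1 : 1 ≤ m := hm.pos
  have hSmall : ¬ (m < c ∧ m < n % c) := by
    rintro ⟨h3, h4⟩
    have hi1 : i ≠ 1 := by
      intro h5
      rw [hc, h5] at h4
      have h6 : cOf 1 = 2 := rfl
      rw [h6] at h4
      obtain ⟨b, hb⟩ := hev
      omega
    exact not_dvd_small_pd hN h2 hq hr hr2 hrF hrq hi1 hm1 hν h4 hdvd
  have hnk : n = n % c + c * (n / c) := (Nat.mod_add_div n c).symm
  have hmodpar : ∀ x : ℕ, (x % c) % 2 = x % 2 := by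
    intro x
    obtain ⟨e, he⟩ := hce
    rw [he, ← two_mul]
    exact Nat.mod_mul_right_mod _ _ _
  have hmododd : m % c ≠ 0 := by
    intro h0
    have := hmodpar m
    rw [h0] at this
    obtain ⟨b, hb⟩ := hm
    omega
  rcases Nat.eq_zero_or_pos (n % c) with h0 | hpos
  · left
    refine ⟨h0, fun hE => ?_⟩
    obtain ⟨V', i1, i2, i3, B', T', hOz, hf, hD, hNS⟩ := exists_max_model (F := F) hq hr hr2 hrF hrq 0 (n / c)
    have hf' : finrank F V' = n := by
      rw [hf, zero_add]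
      rw [h0, zero_add] at hnk
      exact hnk.symm
    have hE' := typeE_of_no_fixed hOz h2 hq hr hr2 hrF hrq hD
    rw [hf', ← hi] at hE'
    have hty : Hy B' ⊤ ↔ Hy (polarBilin Q) ⊤ := by
      rcases Nat.even_or_odd i with he | ho
      · exact (hE'.2 he).symm.trans (hE.2 he)
      · exact ⟨fun _ => hE.1 ho, fun _ => hE'.1 ho⟩
    obtain ⟨l, hl⟩ := hev
    obtain ⟨T, hT, hDT, hT1⟩ := exists_conj_hy h2 (polar_symm Q) hN hOz (l := l) (by omega) (by omega) hty
    have hcn : 0 < n / c := by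
      have hdvd : c ∣ n := Nat.dvd_of_mod_eq_zero h0
      exact Nat.div_pos (Nat.le_of_dvd (by omega) hdvd) hc0
    obtain ⟨W, ⟨hWd, hWn, hWt⟩, hWi⟩ := hL T hT (hT1 (hNS hcn))
    have hK0 : finrank F (K0 T) = 0 := by
      change Dk T (X - 1 : F[X]) = _
      rw [hDT, hD]
    obtain ⟨h3, -, -⟩ := residue hT h2 hq hr hr2 hrF hrq hWn hWi (by rw [hK0, ← hi, ← hc]; exact hc0)
    rw [hWd, ← hi, ← hc] at h3
    have h4 : finrank F (W ⊓ K0 T : Submodule F V) = 0 := by
      have h5 : finrank F (W ⊓ K0 T : Submodule F V) ≤ finrank F (K0 T) := Submodule.finrank_mono inf_le_right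
      omega
    rw [h4] at h3
    exact hmododd h3
  · right
    obtain ⟨V', i1, i2, i3, B', T', hOz, hf, hD, hNS⟩ := exists_max_model (F := F) hq hr hr2 hrF hrq (n % c) (n / c)
    have hf' : finrank F V' = n := by
      rw [hf]
      exact hnk.symm
    obtain ⟨e, he⟩ : ∃ e : K0 T', B' (e : V') (e : V') ≠ 0 := by
      have hnd := nd_K0 hOz hrF
      exact exists_self_ne_zero h2 (B'.restrict (K0 T')) (restrict_nondeg hOz.symm hnd)
        (Cfsg.Agent.Lib.QuadDisc.Basic.restrict_isSymm _ hOz.symm _) (by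
          change 0 < Dk T' (X - 1 : F[X])
          rw [hD]
          exact hpos)
    have hTe : T' (e : V') = e := mem_fix.mp e.2
    obtain ⟨T, hT, hDT, hT1⟩ := exists_conj_fixed h2 (polar_symm Q) hN hOz (by rw [hf']) hTe he
    have hcn : 0 < n / c := by
      by_contra hcon
      have h3 : n / c = 0 := Nat.eq_zero_of_not_pos hcon
      have h4 : n < c := by
        rcases (Nat.div_eq_zero_iff).mp h3 with h5 | h5
        · omega
        · exact h5
      apply hSmall
      rw [Nat.mod_eq_of_lt h4]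
      omega
    obtain ⟨W, ⟨hWd, hWn, hWt⟩, hWi⟩ := hL T hT (hT1 (hNS hcn))
    have hK0 : finrank F (K0 T) = n % c := by
      change Dk T (X - 1 : F[X]) = _
      rw [hDT, hD]
    have hlt : finrank F (K0 T) < c := by
      rw [hK0]
      exact Nat.mod_lt _ hc0
    obtain ⟨h3, h4, -⟩ := residue hT h2 hq hr hr2 hrF hrq hWn hWi hlt
    rw [hWd, ← hi, ← hc] at h3
    have hmodle : m % c ≤ n % c := by
      rw [h3, ← hK0]
      exact h4
    have hmodne : m % c ≠ n % c := by
      have h6 := hmodpar n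
      have h7 := hmodpar m
      obtain ⟨b, hb⟩ := hev
      obtain ⟨a, ha⟩ := hm
      intro h8
      rw [h8] at h7
      omega
    have hlt' : m % c < n % c := lt_of_le_of_ne hmodle hmodne
    refine ⟨?_, hlt'⟩
    by_contra hcm
    push Not at hcm
    apply hSmall
    refine ⟨hcm, ?_⟩
    rw [Nat.mod_eq_of_lt hcm] at hlt'
    exact hlt'

end Cfsg.Agent.Lib.ElusQ.OddW
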