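import Cfsg.Agent.Lib.ElusQ.UniMain
import Cfsg.Agent.Lib.ElusQ.OddThm

/-!
# Final forms of the theorems on odd-dimensional subspaces of even-dimensional quadratic spaces
-/

set_option autoImplicit false
set_option linter.unusedSectionVars false
set_option linter.style.haveILetI false
set_option linter.unusedVariables false
set_option linter.unusedSimpArgs false

open Polynomial Module QuadraticMap Matrix

universe u v w

namespace Cfsg.Agent.Lib.ElusQ.OddWThm

open Cfsg Cfsg.Agent.Lib.ElusL.Basic Cfsg.Agent.Lib.ElusF.Form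
  Cfsg.Agent.Lib.ElusF.Step Cfsg.Agent.Lib.ElusF.Split Cfsg.Agent.Lib.SylowLarge.SpForm
  Cfsg.Agent.Lib.ElusQ.Disc Cfsg.Agent.Lib.ElusQ.Oz Cfsg.Agent.Lib.ElusQ.Syl Cfsg.Agent.Lib.ElusQ.OddMain
  Cfsg.Agent.Lib.ElusQ.Pos Cfsg.Agent.Lib.ElusQ.EvenV Cfsg.Agent.Lib.ElusQ.OddW Cfsg.Agent.Lib.ElusQ.Bridge
  Cfsg.Agent.Lib.ElusQ.UniModel Cfsg.Agent.Lib.ElusQ.UniMain Cfsg.Agent.Lib.ElusQ.SqNegMain
  Cfsg.Agent.Lib.Witt.Quadratic Cfsg.Agent.Lib.QuadDisc.Basic Cfsg.Agent.Lib.QuadDisc.Classify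
  Cfsg.Agent.Lib.Orth.Forms Cfsg.Agent.Lib.Orth.Bridge Cfsg.Agent.Lib.Elusive.OmegaMem

variable {F : Type u} [Field F] [Fintype F] {q r : ℕ}

theorem end_neg_pow {V : Type*} [AddCommGroup V] [Module F V] (A : End F V) (k : ℕ) :
    (-A) ^ (2 * k + 1) = -(A ^ (2 * k + 1)) := by
  induction k with
  | zero => simp
  | succ k ih =>
    have h8 : 2 * (k + 1) + 1 = (2 * k + 1) + 2 := by ring
    rw [h8, pow_add (-A), pow_add A, ih, pow_two, pow_two]
    apply LinearMap.ext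
    intro v
    simp [Module.End.mul_apply]

section Matrix

variable {ι : Type} [Fintype ι] [DecidableEq ι] (Q : QuadraticForm F (ι → F))

/-- Subspaces isometric to a given one are those with the same discriminant. -/
theorem cls_iff (hN : (polarBilin Q).Nondegenerate) (h2 : (2 : F) ≠ 0) {W₀ : Submodule F (ι → F)}
    (hW₀ : Nd (fun u v => polarBilin Q u v) W₀) {m : ℕ} (hm : finrank F W₀ = m) (W : Submodule F (ι → F)) :
    (finrank F W = m ∧ Cfsg.Geo.IsNondegenerateOn (polar ⇑Q) W ∧ Cfsg.Geo.AreIsometricFor ⇑Q W W₀) ↔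
      PD Q m (dd (polarBilin Q) W₀) W := by
  have hS := polar_symm Q
  rw [isNondeg_iff]
  constructor
  · rintro ⟨h1, h3, e, he⟩
    refine ⟨h1, h3, ?_⟩
    obtain ⟨u, hu, hu'⟩ := dd_of_iso (polarBilin Q) e (fun x y => by
      have h5 : Q ((e x : ι → F) + (e y : ι → F)) = Q ((x : ι → F) + (y : ι → F)) := by
        have := he (x + y)
        simpa using this
      change polar (⇑Q) _ _ = polar (⇑Q) _ _
      rw [polar, polar, h5, he x, he y])
    rw [hu']
    refine ⟨u * dd (polarBilin Q) W₀, ?_⟩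
    ring
  · rintro ⟨h1, h3, h4⟩
    refine ⟨h1, h3, ?_⟩
    obtain ⟨φ, hφ⟩ := exists_iso_of_dd h2 hS h3 hW₀ (h1.trans hm.symm) (by
      obtain ⟨s, hs⟩ := h4
      refine ⟨s, ?_⟩
      rw [mul_comm]
      exact hs)
    refine ⟨φ, fun w => ?_⟩
    have h5 := hφ w w
    rw [Cfsg.Agent.Lib.ElusQ.Syl.polar_self', Cfsg.Agent.Lib.ElusQ.Syl.polar_self'] at h5
    exact mul_left_cancel₀ h2 h5

/-- Reduction from projective elements of odd prime order to isometries of order `r`. -/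
theorem lhs_iff_oz (hN : (polarBilin Q).Nondegenerate) (h2 : (2 : F) ≠ 0) (hpos : 0 < Fintype.card ι)
    (hr : r.Prime) (hr2 : r ≠ 2) (P : Submodule F (ι → F) → Prop) :
    (∀ x : GL ι F, x ∈ Cfsg.Geo.omegaGL ⇑Q →
      (∃ z : F, ((x ^ r : GL ι F) : Matrix ι ι F) = z • (1 : Matrix ι ι F)) →
      (∀ z : F, (x : Matrix ι ι F) ≠ z • (1 : Matrix ι ι F)) →
      ∃ W, P W ∧ Inv (Matrix.toLin' (x : Matrix ι ι F)) W) ↔
    (∀ T : End F (ι → F), Oz (polarBilin Q) T r → T ≠ 1 → ∃ W, P W ∧ Inv T W) := by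
  have hrO : Odd r := hr.odd_of_ne_two hr2
  have hne : (-1 : F) ≠ 1 := by
    intro h
    apply h2
    linear_combination (-1 : F) * h
  constructor
  · intro H T hT hT1
    obtain ⟨x, hx, hxo, hxT⟩ := exists_gl_of_oz Q hN h2 hr hrO hT hT1
    have hxr : x ^ r = 1 := by
      rw [← hxo]
      exact pow_orderOf_eq_one x
    obtain ⟨hxi, -⟩ := (mem_omegaGL_iff _ x).mp hx
    have hns : ∀ z : F, (x : Matrix ι ι F) ≠ z • (1 : Matrix ι ι F) := by
      intro z hz
      have hz1 : ((x ^ 1 : GL ι F) : Matrix ι ι F) = z • (1 : Matrix ι ι F) := by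
        rw [pow_one]
        exact hz
      rcases scalar_of_sq Q hN h2 hpos hxi hz1 with rfl | rfl
      · apply hT1
        rw [← hxT, hz]
        simp
        rfl
      · have h3 : (x : Matrix ι ι F) = -1 := by
          rw [hz]
          simp
        have h4 : ((x ^ r : GL ι F) : Matrix ι ι F) = 1 := by
          rw [hxr]
          rfl
        rw [Units.val_pow_eq_pow_val, h3, hrO.neg_pow, one_pow] at h4
        obtain ⟨i⟩ : Nonempty ι := Fintype.card_pos_iff.mp hpos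
        have h5 := congrFun (congrFun h4 i) i
        simp at h5
        exact hne h5
    obtain ⟨W, h3, h4⟩ := H x hx ⟨1, by
      rw [hxr]
      simp⟩ hns
    rw [hxT] at h4
    exact ⟨W, h3, h4⟩
  · rintro H x hΩ ⟨z, hz⟩ hns
    obtain ⟨hxi, -⟩ := (mem_omegaGL_iff _ x).mp hΩ
    rcases scalar_of_sq Q hN h2 hpos hxi hz with rfl | rfl
    · have hxr : x ^ r = 1 := by
        apply Units.ext
        rw [hz]
        simp
      obtain ⟨W, h3, h4⟩ := H _ (oz_of_mem Q hN hxi hxr) (by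
        intro hT
        apply hns 1
        apply Matrix.toLin'.injective
        rw [hT]
        simp
        rfl)
      exact ⟨W, h3, h4⟩
    · have hpow : (Matrix.toLin' (x : Matrix ι ι F)) ^ r = -1 := by
        rw [Cfsg.Agent.Lib.ElusQ.Bridge.toLin_pow, ← Units.val_pow_eq_pow_val, hz]
        apply LinearMap.ext
        intro v
        rw [Matrix.toLin'_apply, Matrix.smul_mulVec, Matrix.one_mulVec, neg_one_smul]
        rfl
      have hOz : Oz (polarBilin Q) (- Matrix.toLin' (x : Matrix ι ι F)) r := by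
        refine ⟨polar_symm Q, hN, ?_, ?_⟩
        · intro u v
          simp only [LinearMap.neg_apply, map_neg, neg_neg]
          exact iso_of_mem Q hN hxi u v
        · have h7 : ∀ (A : End F (ι → F)), (-A) ^ r = -(A ^ r) := by
            intro A
            obtain ⟨k, hk⟩ := hrO
            rw [hk]
            exact end_neg_pow A k
          exact (h7 _).trans (by rw [hpow]; simp)
      obtain ⟨W, h3, h4⟩ := H _ hOz (by
        intro hT
        apply hns (-1)
        apply Matrix.toLin'.injective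
        apply LinearMap.ext
        intro v
        have h5 : - (Matrix.toLin' (x : Matrix ι ι F) v) = v := congrArg (fun f : End F (ι → F) => f v) hT
        have h6 : Matrix.toLin' ((-1 : F) • (1 : Matrix ι ι F)) v = - v := by
          rw [Matrix.toLin'_apply, Matrix.smul_mulVec, Matrix.one_mulVec, neg_one_smul]
        rw [h6]
        exact neg_eq_iff_eq_neg.mp h5)
      refine ⟨W, h3, fun v hv => ?_⟩
      have h5 := h4 v hv
      have h6 := W.neg_mem h5
      simpa using h6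

/-- The odd prime case. -/
theorem oddW_iff (hN : (polarBilin Q).Nondegenerate) (h2 : (2 : F) ≠ 0)
    (hq : Fintype.card F = q) (hr : r.Prime) (hr2 : r ≠ 2) (hrF : (r : F) ≠ 0) (hrq : ¬ r ∣ q)
    (hpos : 0 < Fintype.card ι)
    (hev : Even (finrank F (ι → F))) {m : ℕ} (hm : Odd m) (hmn : m < finrank F (ι → F)) {ν : F} (hν : ν ≠ 0)
    (hdvd : r ∣ Nat.card {W // PD Q m ν W}) :
    (∀ x : GL ι F, x ∈ Cfsg.Geo.omegaGL ⇑Q →
      (∃ z : F, ((x ^ r : GL ι F) : Matrix ι ι F) = z • (1 : Matrix ι ι F)) →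
      (∀ z : F, (x : Matrix ι ι F) ≠ z • (1 : Matrix ι ι F)) →
      ∃ W, PD Q m ν W ∧ Inv (Matrix.toLin' (x : Matrix ι ι F)) W) ↔
    ((finrank F (ι → F) % cOf (orderOf (q : ZMod r)) = 0 ∧
        ¬ TypeE (finrank F (ι → F)) (orderOf (q : ZMod r)) (Hy (polarBilin Q) ⊤)) ∨
      (cOf (orderOf (q : ZMod r)) ≤ m ∧
        m % cOf (orderOf (q : ZMod r)) < finrank F (ι → F) % cOf (orderOf (q : ZMod r)))) := by
  rw [lhs_iff_oz Q hN h2 hpos hr hr2]
  constructor
  · intro H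
    exact oddW_forward hN h2 hq hr hr2 hrF hrq hev hm hmn hν hdvd H
  · intro H T hT _
    refine oddW_backward hN h2 hq hr hr2 hrF hrq hev hm hmn hν ?_ hT
    rcases H with h | h
    · exact Or.inl h
    · exact Or.inr h.2

variable {p : ℕ} [hp : Fact p.Prime] [CharP F p]

/-- The unipotent elements. -/
theorem rp_no (h2 : (2 : F) ≠ 0) (hp3 : 3 ≤ p) (hN : (polarBilin Q).Nondegenerate) {d m : ℕ}
    (hd : finrank F (ι → F) = 2 * d) (hd3 : 3 ≤ d) (hm : Odd m) {ν : F} (hν : ν ≠ 0) :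
    ∃ T : End F (ι → F), Oz (polarBilin Q) T p ∧ T ≠ 1 ∧ ∀ W, ¬ (PD Q m ν W ∧ Inv T W) := by
  have hS := polar_symm Q
  rcases Nat.even_or_odd d with he | ho
  · obtain ⟨ε, hε0, hε⟩ := exists_nonsquare (F := F) h2
    obtain ⟨k, hk⟩ : ∃ k, d = 2 * k + 2 := by
      obtain ⟨a, ha⟩ := he
      exact ⟨a - 1, by omega⟩
    obtain ⟨t, ht⟩ := hm
    have hm4 : m % 4 = 1 ∨ m % 4 = 3 := by omega
    rcases hm4 with hm4 | hm4
    · obtain ⟨T, hT, hT1, hW⟩ := u4 (p := p) h2 hp3 hS hN (k := k) (by rw [hd, hk]) (mul_ne_zero hν hε0)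
      refine ⟨T, hT, hT1, ?_⟩
      rintro W ⟨⟨hWd, hWn, hWs⟩, hWi⟩
      have h3 := hW W hWn hWi (by rw [hWd]; exact hm4)
      have h4 := dd_ne_zero hS hWn
      apply hε
      rw [← isSquare_mul_self_mul (mul_ne_zero hν h4)]
      obtain ⟨a, ha⟩ := h3
      obtain ⟨b, hb⟩ := hWs
      refine ⟨a * b, ?_⟩
      have : ν * dd (polarBilin Q) W * (ν * dd (polarBilin Q) W) * ε =
          (ν * ε * dd (polarBilin Q) W) * (ν * dd (polarBilin Q) W) := by ring
      rw [this, ha, hb]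
      ring
    · have hD : dd (polarBilin Q) ⊤ ≠ 0 := dd_ne_zero hS (fm_of_symm hS hN).nd_top
      obtain ⟨T, hT, hT1, hW⟩ := u4 (p := p) h2 hp3 hS hN (k := k) (by rw [hd, hk])
        (mul_ne_zero (mul_ne_zero hν hD) hε0)
      refine ⟨T, hT, hT1, ?_⟩
      rintro W ⟨⟨hWd, hWn, hWs⟩, hWi⟩
      have hf := hT.fm
      have hc := hf.isCompl_orth hWn
      have h3 : finrank F W + finrank F (hf.orth W) = finrank F (ι → F) := Submodule.finrank_add_eq_of_isCompl hc
      have h4 := hW (hf.orth W) (hf.nd_orth hWn) (hf.inv_orth hT.iso (hT.inj hp.out.ne_zero) hWi) (by omega)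
      obtain ⟨u, hu, hu'⟩ := dd_sup (B := polarBilin Q) hc.disjoint
        (fun x hx y hy => hf.mem_orth.mp hy x hx) (fun x hx y hy => by
          rw [hS.eq]
          exact hf.mem_orth.mp hy x hx)
      rw [hc.sup_eq_top] at hu'
      have h5 := dd_ne_zero hS hWn
      have h6 := dd_ne_zero hS (hf.nd_orth hWn)
      apply hε
      rw [← isSquare_mul_self_mul (mul_ne_zero (mul_ne_zero hν hD) (inv_ne_zero hu))]
      obtain ⟨a, ha⟩ := h4
      obtain ⟨b, hb⟩ := hWs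
      refine ⟨a * b, ?_⟩
      have h8 : dd (polarBilin Q) W * dd (polarBilin Q) (hf.orth W) =
          dd (polarBilin Q) ⊤ * u⁻¹ * u⁻¹ := by
        rw [hu']
        field_simp
      have h7 : ν * dd (polarBilin Q) ⊤ * u⁻¹ * (ν * dd (polarBilin Q) ⊤ * u⁻¹) * ε =
          (ν * dd (polarBilin Q) ⊤ * ε * dd (polarBilin Q) (hf.orth W)) * (ν * dd (polarBilin Q) W) := by
        linear_combination (- ν * dd (polarBilin Q) ⊤ * ε * ν) * h8
      rw [h7, ha, hb]
      ring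
  · obtain ⟨t, ht⟩ := hm
    have hm4 : m % 4 = 1 ∨ m % 4 = 3 := by omega
    obtain ⟨a, ha⟩ := ho
    rcases hm4 with hm4 | hm4
    · obtain ⟨T, hT, hT1, hW⟩ := u3 (p := p) h2 hp3 hS hN (k := a - 1) (by
        rw [hd]
        congr 1
        omega)
      refine ⟨T, hT, hT1, ?_⟩
      rintro W ⟨⟨hWd, hWn, hWs⟩, hWi⟩
      have h3 := hW W hWn hWi (by rw [hWd]; exact ⟨t, ht⟩)
      omega
    · obtain ⟨T, hT, hT1, hW⟩ := u2 (p := p) h2 hp3 hS hN (k := a) (by omega) (by rw [hd, ha])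
      refine ⟨T, hT, hT1, ?_⟩
      rintro W ⟨⟨hWd, hWn, hWs⟩, hWi⟩
      have h3 := hW W hWn hWi (by rw [hWd]; exact ⟨t, ht⟩)
      omega

/-- The case `r = p`. -/
theorem rp_iff (h2 : (2 : F) ≠ 0) (hp3 : 3 ≤ p) (hN : (polarBilin Q).Nondegenerate) {d m : ℕ}
    (hd : finrank F (ι → F) = 2 * d) (hd3 : 3 ≤ d) (hm : Odd m) {ν : F} (hν : ν ≠ 0) :
    ¬ (∀ x : GL ι F, x ∈ Cfsg.Geo.omegaGL ⇑Q →
      (∃ z : F, ((x ^ p : GL ι F) : Matrix ι ι F) = z • (1 : Matrix ι ι F)) →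
      (∀ z : F, (x : Matrix ι ι F) ≠ z • (1 : Matrix ι ι F)) →
      ∃ W, PD Q m ν W ∧ Inv (Matrix.toLin' (x : Matrix ι ι F)) W) := by
  intro H
  rw [lhs_iff_oz Q hN h2 (by
    rw [finrank_ι] at hd
    omega) hp.out (by omega)] at H
  obtain ⟨T, hT, hT1, hW⟩ := rp_no Q (p := p) h2 hp3 hN hd hd3 hm hν
  obtain ⟨W, h3, h4⟩ := H T hT hT1
  exact hW W ⟨h3, h4⟩

end Matrix

/-- The arithmetic of `r = 2`, positive type. -/
theorem plus_two (hq : Fintype.card F = q) (hodd : Odd q) (h2 : (2 : F) ≠ 0) {d : ℕ} {D : F} (hD : D ≠ 0)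
    (hH : IsSquare ((-1) ^ d * D)) : ¬ (IsSquare D ∧ IsSquare ((2 : F) ^ d)) ↔ (Odd d ∧ q % 8 ≠ 1) := by
  obtain ⟨k, hk⟩ := hodd
  have hn : IsSquare (-1 : F) ↔ q % 4 ≠ 3 := by
    rw [FiniteField.isSquare_neg_one_iff, hq]
  have ht : IsSquare (2 : F) ↔ (q % 8 ≠ 3 ∧ q % 8 ≠ 5) := by
    rw [FiniteField.isSquare_two_iff, hq]
  have h20 : (2 : F) ≠ 0 := h2
  have hm1 : (-1 : F) ≠ 0 := neg_ne_zero.mpr one_ne_zero
  rcases Nat.even_or_odd d with he | ho
  · have h1 : (-1 : F) ^ d = 1 := he.neg_one_pow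
    rw [h1, one_mul] at hH
    have h3 : IsSquare ((2 : F) ^ d) := he.isSquare_pow _
    constructor
    · intro h
      exact absurd ⟨hH, h3⟩ h
    · rintro ⟨ho, -⟩
      exact absurd he (Nat.not_even_iff_odd.mpr ho)
  · have h1 : (-1 : F) ^ d = -1 := ho.neg_one_pow
    rw [h1, isSquare_mul_iff hm1 hD] at hH
    have h4 : IsSquare ((2 : F) ^ d) ↔ IsSquare (2 : F) := by
      obtain ⟨a, ha⟩ := ho
      rw [ha, pow_succ, pow_mul]
      have : ((2 : F) ^ 2) ^ a = 2 ^ a * 2 ^ a := by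
        rw [← pow_mul, ← pow_add]
        congr 1
        omega
      rw [this]
      exact isSquare_mul_self_mul (pow_ne_zero _ h20) _
    rw [h4, ← hH, hn, ht]
    have : q % 8 = 1 ∨ q % 8 = 3 ∨ q % 8 = 5 ∨ q % 8 = 7 := by omega
    constructor
    · intro h
      refine ⟨ho, fun h8 => h ⟨by omega, by omega, by omega⟩⟩
    · rintro ⟨-, h8⟩ ⟨h5, h6, h7⟩
      omega

/-- The arithmetic of `r = 2`, negative type. -/
theorem minus_two (hq : Fintype.card F = q) (hodd : Odd q) (h2 : (2 : F) ≠ 0) {d : ℕ} {D : F} (hD : D ≠ 0)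
    (hH : ¬ IsSquare ((-1) ^ d * D)) : ¬ (IsSquare D ∧ IsSquare ((2 : F) ^ d)) ↔ (Even d ∨ q % 8 ≠ 7) := by
  obtain ⟨k, hk⟩ := hodd
  have hn : IsSquare (-1 : F) ↔ q % 4 ≠ 3 := by
    rw [FiniteField.isSquare_neg_one_iff, hq]
  have ht : IsSquare (2 : F) ↔ (q % 8 ≠ 3 ∧ q % 8 ≠ 5) := by
    rw [FiniteField.isSquare_two_iff, hq]
  have h20 : (2 : F) ≠ 0 := h2
  have hm1 : (-1 : F) ≠ 0 := neg_ne_zero.mpr one_ne_zero
  rcases Nat.even_or_odd d with he | ho
  · have h1 : (-1 : F) ^ d = 1 := he.neg_one_pow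
    rw [h1, one_mul] at hH
    constructor
    · intro _
      exact Or.inl he
    · intro _ h
      exact hH h.1
  · have h1 : (-1 : F) ^ d = -1 := ho.neg_one_pow
    rw [h1, isSquare_mul_iff hm1 hD] at hH
    have h4 : IsSquare ((2 : F) ^ d) ↔ IsSquare (2 : F) := by
      obtain ⟨a, ha⟩ := ho
      rw [ha, pow_succ, pow_mul]
      have : ((2 : F) ^ 2) ^ a = 2 ^ a * 2 ^ a := by
        rw [← pow_mul, ← pow_add]
        congr 1
        omega
      rw [this]
      exact isSquare_mul_self_mul (pow_ne_zero _ h20) _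
    rw [h4, ht]
    have h5 : IsSquare D ↔ q % 4 = 3 := by
      by_cases hD' : IsSquare D
      · have : ¬ IsSquare (-1 : F) := fun h => hH ⟨fun _ => hD', fun _ => h⟩
        rw [hn] at this
        simp only [hD', true_iff]
        omega
      · have : IsSquare (-1 : F) := by
          by_contra hc
          exact hH ⟨fun h => absurd h hc, fun h => absurd h hD'⟩
        rw [hn] at this
        simp only [hD', false_iff]
        exact this
    rw [h5]
    have : q % 8 = 1 ∨ q % 8 = 3 ∨ q % 8 = 5 ∨ q % 8 = 7 := by omega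
    have hne : ¬ Even d := Nat.not_even_iff_odd.mpr ho
    constructor
    · intro h
      right
      intro h8
      exact h ⟨by omega, by omega, by omega⟩
    · rintro (h | h8) ⟨h6, h7, h9⟩
      · exact hne h
      · omega

end Cfsg.Agent.Lib.ElusQ.OddWThm
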