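import Cfsg.Agent.Lib.ElusQ.OddW
import Cfsg.Agent.Lib.Orth.Words

/-!
# Isometries with square `-1`
-/

set_option autoImplicit false
set_option linter.unusedSectionVars false
set_option linter.style.haveILetI false
set_option linter.unusedVariables false
set_option linter.unusedSimpArgs false

open Polynomial Module QuadraticMap Matrix

universe u v w

namespace Cfsg.Agent.Lib.ElusQ.SqNeg

open Cfsg Cfsg.Agent.Lib.ElusL.Basic Cfsg.Agent.Lib.ElusF.Form
  Cfsg.Agent.Lib.ElusF.Step Cfsg.Agent.Lib.ElusF.Split
  Cfsg.Agent.Lib.ElusQ.Disc Cfsg.Agent.Lib.ElusQ.Oz Cfsg.Agent.Lib.ElusQ.Syl Cfsg.Agent.Lib.ElusQ.OddMain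
  Cfsg.Agent.Lib.ElusQ.Pos Cfsg.Agent.Lib.ElusQ.EvenV Cfsg.Agent.Lib.ElusQ.OddW Cfsg.Agent.Lib.ElusQ.Bridge
  Cfsg.Agent.Lib.Witt.Quadratic Cfsg.Agent.Lib.QuadDisc.Basic Cfsg.Agent.Lib.QuadDisc.Classify
  Cfsg.Agent.Lib.Orth.Refl Cfsg.Agent.Lib.Orth.Bridge Cfsg.Agent.Lib.Orth.Words Cfsg.Agent.Lib.Elusive.OmegaMem

variable {F : Type u} [Field F] [Fintype F] {V : Type v} [AddCommGroup V] [Module F V]
  [FiniteDimensional F V]

/-- The structure of an isometry with square `-1`. -/
theorem sqneg_struct {Q : QuadraticForm F V} (hN : (polarBilin Q).Nondegenerate) (h2 : (2 : F) ≠ 0)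
    {T : End F V} (hT : ∀ u v, polarBilin Q (T u) (T v) = polarBilin Q u v) (hT2 : ∀ v, T (T v) = - v) :
    ∀ (n : ℕ) (W : Submodule F V), Nd (fun u v => polarBilin Q u v) W → Inv T W → finrank F W = n →
      Even n ∧ IsSquare (dd (polarBilin Q) W) ∧
      ∃ vs : List V, (∀ v ∈ vs, v ∈ W ∧ Q v ≠ 0) ∧ vs.length = n ∧
        (∀ x ∈ W, (vs.map (refl Q)).prod x = T x) ∧
        (∀ x, (∀ w ∈ W, polar Q x w = 0) → (vs.map (refl Q)).prod x = x) ∧
        ∃ (k : ℕ) (c : F), n = 2 * k ∧ c ≠ 0 ∧ (vs.map (fun v => Q v)).prod = 2 ^ k * (c * c) := by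
  have hS := polar_symm Q
  have hB := fm_of_symm hS hN
  have hinj : Function.Injective T := by
    intro a b hab
    have h1 : T (T a) = T (T b) := by rw [hab]
    rw [hT2, hT2] at h1
    exact neg_injective h1
  intro n
  induction n using Nat.strong_induction_on with
  | _ n ih =>
    intro W hW hWi hWd
    rcases Nat.eq_zero_or_pos n with h0 | hpos
    · subst h0
      have hbot : W = ⊥ := Submodule.finrank_eq_zero.mp hWd
      subst hbot
      refine ⟨Even.zero, ?_, [], by simp, rfl, ?_, ?_, 0, 1, by simp, one_ne_zero, by simp⟩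
      · unfold dd
        rw [Matrix.det_eq_one_of_card_eq_zero (by simp)]
        exact IsSquare.one
      · intro x hx
        rw [(Submodule.mem_bot F).mp hx]
        simp
      · intro x _
        simp
    · obtain ⟨v', hv'⟩ : ∃ e : W, polarBilin Q (e : V) (e : V) ≠ 0 :=
        exists_self_ne_zero h2 (LinearMap.BilinForm.restrict (polarBilin Q) W) (restrict_nondeg hS hW)
          (restrict_isSymm _ hS _) (by rw [hWd]; exact hpos)
      obtain ⟨v, hvW⟩ := v'
      simp only at hv'
      set B := polarBilin Q with hBdef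
      set a := B v v with ha
      set w := T v with hw
      have hwW : w ∈ W := hWi v hvW
      have hvw : B v w = 0 := by
        have h1 := hT v w
        rw [hw, hT2, map_neg, hS.eq (T v) v] at h1
        have h3 : (2 : F) * B v (T v) = 0 := by
          rw [two_mul]
          nth_rewrite 1 [← h1]
          ring
        exact (mul_eq_zero.mp h3).resolve_left h2
      have hwv : B w v = 0 := by rw [hS.eq]; exact hvw
      have hww : B w w = a := hT v v
      have hTw : T w = -v := hT2 v
      have hQv : Q v = a / 2 := by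
        rw [ha, Cfsg.Agent.Lib.ElusQ.Syl.polar_self', mul_div_cancel_left₀ _ h2]
      have hQw : Q w = a / 2 := by
        have : B w w = 2 * Q w := Cfsg.Agent.Lib.ElusQ.Syl.polar_self' Q w
        rw [hww] at this
        rw [this, mul_div_cancel_left₀ _ h2]
      have ha0 : a ≠ 0 := hv'
      have hv0 : v ≠ 0 := by
        rintro rfl
        simp [ha, B] at ha0
      have hw0 : w ≠ 0 := by
        intro h
        rw [h] at hww
        simp at hww
        exact ha0 hww.symm
      have hline : ∀ {y : V}, B y y ≠ 0 → Nd (fun u v => B u v) (Submodule.span F {y}) := by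
        intro y hy x hx hh
        obtain ⟨c, rfl⟩ := Submodule.mem_span_singleton.mp hx
        have h3 := hh y (Submodule.mem_span_singleton_self y)
        simp only [map_smul, LinearMap.smul_apply, smul_eq_mul] at h3
        have hc : c = 0 := (mul_eq_zero.mp h3).resolve_right hy
        rw [hc, zero_smul]
      have hwwne : B w w ≠ 0 := by rw [hww]; exact ha0
      have hL₁ := hline ha0
      have hL₂ := hline hwwne
      have horthL : ∀ x ∈ Submodule.span F {v}, ∀ y ∈ Submodule.span F {w}, B x y = 0 := by
        intro x hx y hy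
        obtain ⟨c, rfl⟩ := Submodule.mem_span_singleton.mp hx
        obtain ⟨e, rfl⟩ := Submodule.mem_span_singleton.mp hy
        simp [hvw]
      have horthL' : ∀ x ∈ Submodule.span F {v}, ∀ y ∈ Submodule.span F {w}, B y x = 0 := by
        intro x hx y hy
        rw [hS.eq]
        exact horthL x hx y hy
      have hdis : Disjoint (Submodule.span F {v}) (Submodule.span F {w}) := by
        rw [Submodule.disjoint_def]
        intro x hx hx'
        apply hL₁ x hx
        intro y hy
        change B x y = 0
        rw [hS.eq]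
        exact horthL y hy x hx'
      set P := Submodule.span F {v} ⊔ Submodule.span F {w} with hP
      have hPn : Nd (fun u v => B u v) P := nd_sup hB hL₁ hL₂ (fun y hy x hx => horthL x hx y hy)
      have hPW : P ≤ W := sup_le ((Submodule.span_singleton_le_iff_mem _ _).mpr hvW)
        ((Submodule.span_singleton_le_iff_mem _ _).mpr hwW)
      have hPd : finrank F P = 2 := by
        rw [hP, finrank_sup_of_disjoint' hdis, finrank_span_singleton hv0, finrank_span_singleton hw0]
      have hPi : Inv T P := by
        intro x hx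
        obtain ⟨x₁, hx₁, x₂, hx₂, rfl⟩ := Submodule.mem_sup.mp hx
        obtain ⟨c, rfl⟩ := Submodule.mem_span_singleton.mp hx₁
        obtain ⟨e, rfl⟩ := Submodule.mem_span_singleton.mp hx₂
        rw [map_add, map_smul, map_smul, hTw]
        exact P.add_mem (P.smul_mem _ (Submodule.mem_sup_right (Submodule.mem_span_singleton_self w)))
          (P.smul_mem _ (P.neg_mem (Submodule.mem_sup_left (Submodule.mem_span_singleton_self v))))
      have hPdd : IsSquare (dd B P) := by
        obtain ⟨u, hu, hu'⟩ := dd_sup (B := B) hdis horthL horthL'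
        obtain ⟨u₁, hu₁, hu₁'⟩ := dd_span (B := B) ha0 hv0
        obtain ⟨u₂, hu₂, hu₂'⟩ := dd_span (B := B) hwwne hw0
        rw [← hP] at hu'
        rw [hu', isSquare_mul_self_mul hu]
        rw [hww] at hu₂'
        have h3 : dd B (Submodule.span F {v}) = a / (u₁ * u₁) := by
          rw [ha, hu₁']
          field_simp
        have h4 : dd B (Submodule.span F {w}) = a / (u₂ * u₂) := by
          rw [hu₂']
          field_simp
        rw [h3, h4]
        refine ⟨a / (u₁ * u₂), ?_⟩
        field_simp
      set W₁ := W ⊓ hB.orth P with hW₁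
      have hW₁n : Nd (fun u v => B u v) W₁ := hB.nd_inf_orth hW hPn hPW
      have hW₁d : finrank F W₁ + 2 = n := by
        rw [hW₁, ← hWd, ← hPd]
        exact hB.finrank_inf_orth hW hPW
      have hW₁i : Inv T W₁ := hB.inv_inf hWi (hB.inv_orth hT hinj hPi)
      obtain ⟨hev, hsq, vs, hvs, hlen, hact, hfix, k, c, hk, hc, hprod⟩ :=
        ih (finrank F W₁) (by omega) W₁ hW₁n hW₁i rfl
      have hc1 := hB.isCompl_inf_orth hPn hPW
      have hdisW : Disjoint P W₁ := by
        rw [disjoint_iff]
        exact hc1.2
      have hor1 : ∀ x ∈ P, ∀ y ∈ W₁, B x y = 0 := fun x hx y hy => (hB.mem_orth.mp hy.2) x hx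
      have hor2 : ∀ x ∈ P, ∀ y ∈ W₁, B y x = 0 := fun x hx y hy => by
        rw [hS.eq]
        exact hor1 x hx y hy
      have hvP : v ∈ P := Submodule.mem_sup_left (Submodule.mem_span_singleton_self v)
      have hwP : w ∈ P := Submodule.mem_sup_right (Submodule.mem_span_singleton_self w)
      have hQvw : Q (v + w) = a := by
        have h3 : polarBilin Q v w = 0 := hvw
        have h4 : Q (v + w) = Q v + Q w + polar Q v w := by
          rw [QuadraticMap.polar]
          ring
        rw [h4, hQv, hQw]
        change a / 2 + a / 2 + B v w = a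
        rw [hvw]
        field_simp
        ring
      refine ⟨by
        rw [← hW₁d]
        exact hev.add even_two, ?_, (v + w) :: v :: vs, ?_, ?_, ?_, ?_, k + 1, (a / 2) * c, ?_, ?_, ?_⟩
      · -- the discriminant
        obtain ⟨u, hu, hu'⟩ := dd_sup (B := B) hdisW hor1 hor2
        rw [hc1.1] at hu'
        rw [hu', isSquare_mul_self_mul hu]
        exact hPdd.mul hsq
      · intro y hy
        simp only [List.mem_cons] at hy
        rcases hy with rfl | rfl | hy
        · refine ⟨W.add_mem hvW hwW, ?_⟩
          rw [hQvw]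
          exact ha0
        · refine ⟨hvW, ?_⟩
          rw [hQv]
          exact div_ne_zero ha0 h2
        · exact ⟨(hvs y hy).1.1, (hvs y hy).2⟩
      · simp [hlen]
        omega
      · -- the action on `W`
        have hfixv : ∀ x ∈ W₁, refl Q v x = x := fun x hx => refl_fix Q (hor2 v hvP x hx)
        have hfixw : ∀ x ∈ W₁, refl Q (v + w) x = x := fun x hx => refl_fix Q (by
          rw [polar_add_right]
          change B x v + B x w = 0
          rw [hor2 v hvP x hx, hor2 w hwP x hx, add_zero])
        have hP1 : ∀ x ∈ P, (vs.map (refl Q)).prod x = x := fun x hx => hfix x (fun y hy => hor1 x hx y hy)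
        have hmain : ∀ x ∈ P, refl Q (v + w) (refl Q v x) = T x := by
          intro x hx
          obtain ⟨x₁, hx₁, x₂, hx₂, rfl⟩ := Submodule.mem_sup.mp hx
          obtain ⟨s, rfl⟩ := Submodule.mem_span_singleton.mp hx₁
          obtain ⟨t, rfl⟩ := Submodule.mem_span_singleton.mp hx₂
          have h5 : refl Q v v = -v := refl_self Q (by rw [hQv]; exact div_ne_zero ha0 h2)
          have h6 : refl Q v w = w := refl_fix Q hwv
          have h7 : polar Q v (v + w) = a := by
            rw [polar_add_right]
            change B v v + B v w = a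
            rw [hvw, add_zero]
          have h8 : polar Q w (v + w) = a := by
            rw [polar_add_right]
            change B w v + B w w = a
            rw [hwv, hww, zero_add]
          have h9 : refl Q (v + w) v = -w := by
            rw [refl_apply, hQvw, h7, inv_mul_cancel₀ ha0, one_smul]
            abel
          have h10 : refl Q (v + w) w = -v := by
            rw [refl_apply, hQvw, h8, inv_mul_cancel₀ ha0, one_smul]
            abel
          simp only [map_add, map_smul, h5, h6, map_neg, h9, h10, neg_neg, hTw]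
          rfl
        intro x hx
        have hx' : x ∈ P ⊔ W₁ := by rw [hc1.1]; exact hx
        obtain ⟨y, hy, z, hz, rfl⟩ := Submodule.mem_sup.mp hx'
        simp only [List.map_cons, List.prod_cons, LinearEquiv.mul_apply, map_add]
        rw [hP1 y hy, hact z hz, hmain y hy, hfixv _ (hW₁i z hz), hfixw _ (hW₁i z hz)]
      · intro x hx
        have h3 : ∀ y ∈ W₁, polar Q x y = 0 := fun y hy => hx y hy.1
        simp only [List.map_cons, List.prod_cons, LinearEquiv.mul_apply]
        rw [hfix x h3, refl_fix Q (hx v hvW), refl_fix Q (by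
          rw [polar_add_right, hx v hvW, hx w hwW, add_zero])]
      · omega
      · exact mul_ne_zero (div_ne_zero ha0 h2) hc
      · simp only [List.map_cons, List.prod_cons]
        rw [hprod, hQvw, hQv, pow_succ]
        field_simp

/-- Invariant nondegenerate subspaces have even dimension. -/
theorem even_of_sqneg {Q : QuadraticForm F V} (hN : (polarBilin Q).Nondegenerate) (h2 : (2 : F) ≠ 0)
    {T : End F V} (hT : ∀ u v, polarBilin Q (T u) (T v) = polarBilin Q u v) (hT2 : ∀ v, T (T v) = - v)
    {W : Submodule F V} (hW : Nd (fun u v => polarBilin Q u v) W) (hWi : Inv T W) : Even (finrank F W) :=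
  (sqneg_struct hN h2 hT hT2 _ W hW hWi rfl).1

theorem dd_top_of_sqneg {Q : QuadraticForm F V} (hN : (polarBilin Q).Nondegenerate) (h2 : (2 : F) ≠ 0)
    {T : End F V} (hT : ∀ u v, polarBilin Q (T u) (T v) = polarBilin Q u v) (hT2 : ∀ v, T (T v) = - v) :
    IsSquare (dd (polarBilin Q) ⊤) :=
  (sqneg_struct hN h2 hT hT2 _ ⊤ (fm_of_symm (polar_symm Q) hN).nd_top (fun _ _ => trivial) rfl).2.1

end Cfsg.Agent.Lib.ElusQ.SqNeg
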