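import Cfsg.Agent.Lib.ElusQ.UniModel

/-!
# Unipotent isometries without invariant odd-dimensional nondegenerate subspaces of a given kind
-/

set_option autoImplicit false
set_option linter.unusedSectionVars false
set_option linter.style.haveILetI false
set_option linter.unusedVariables false
set_option linter.unusedSimpArgs false

open Polynomial Module QuadraticMap Matrix

universe u v w

namespace Cfsg.Agent.Lib.ElusQ.UniMain

open Cfsg Cfsg.Agent.Lib.ElusL.Basic Cfsg.Agent.Lib.ElusF.Form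
  Cfsg.Agent.Lib.ElusF.Step Cfsg.Agent.Lib.ElusF.Split Cfsg.Agent.Lib.SylowLarge.SpForm
  Cfsg.Agent.Lib.ElusQ.Disc Cfsg.Agent.Lib.ElusQ.Oz Cfsg.Agent.Lib.ElusQ.Syl Cfsg.Agent.Lib.ElusQ.OddMain
  Cfsg.Agent.Lib.ElusQ.Pos Cfsg.Agent.Lib.ElusQ.EvenV Cfsg.Agent.Lib.ElusQ.OddW Cfsg.Agent.Lib.ElusQ.Bridge
  Cfsg.Agent.Lib.ElusQ.Uni Cfsg.Agent.Lib.ElusQ.Model Cfsg.Agent.Lib.ElusQ.UniRank Cfsg.Agent.Lib.ElusQ.UniModel
  Cfsg.Agent.Lib.Witt.Quadratic Cfsg.Agent.Lib.QuadDisc.Basic Cfsg.Agent.Lib.QuadDisc.Classify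
  Cfsg.Agent.Lib.Orth.Forms

variable {F : Type u} [Field F] [Fintype F] {V : Type v} [AddCommGroup V] [Module F V] [FiniteDimensional F V]
  {p : ℕ} [hp : Fact p.Prime] [CharP F p] {B : LinearMap.BilinForm F V}

theorem rk_one {X : Type*} [AddCommGroup X] [Module F X] : RK (1 : End F X) 0 0 := by
  unfold RK
  rw [sub_self]
  refine ⟨Nat.zero_le _, ?_⟩
  have h3 : ((0 : End F X) ∘ₗ (0 : End F X)) = (0 : X →ₗ[F] X) := rfl
  rw [h3, LinearMap.range_zero, finrank_bot]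

theorem finrank_XA (d : ℕ) : finrank F (Fin d ⊕ Fin d → F) = 2 * d := by
  rw [Module.finrank_fintype_fun_eq_card]
  simp
  ring

theorem finrank_X1 : finrank F (Fin 1 → F) = 1 := by
  rw [Module.finrank_fintype_fun_eq_card]
  simp

theorem finrank_X3 : finrank F (Unit ⊕ (Fin 1 ⊕ Fin 1) → F) = 3 := by
  rw [Module.finrank_fintype_fun_eq_card]
  simp

theorem oz_J3 (h2 : (2 : F) ≠ 0) (hp3 : 3 ≤ p) :
    Oz (polarBilin (oddForm 1 F)) (1 + NN (pA : Fin 1 → Fin 1 → F) pa) p :=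
  oz_uni h2 hp3 le_rfl

theorem rk_J3 (h2 : (2 : F) ≠ 0) : RK (1 + NN (pA : Fin 1 → Fin 1 → F) pa) 2 1 :=
  rk_NN h2 odd_one

/-- Even `d`, hyperbolic space. -/
theorem u1 (h2 : (2 : F) ≠ 0) (hp3 : 3 ≤ p) (hS : B.IsSymm) (hN : B.Nondegenerate) {k : ℕ}
    (hk : 0 < k) (hd : finrank F V = 2 * (2 * k)) (hHy : Hy B ⊤) :
    ∃ T : End F V, Oz B T p ∧ T ≠ 1 ∧ ∀ W : Submodule F V, Nd (fun u v => B u v) W → Inv T W →
      Even (finrank F W) := by
  have hO := oz_NP (d := 2 * k) (F := F) (p := p) h2 hp3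
  have hR := rk_NP (F := F) (d := 2 * k) (even_two_mul k)
  have hHy' : Hy (polarBilin (plusForm (2 * k) F)) ⊤ := by
    refine hy_of_ranks hO.symm hO.nondeg hO.iso (hO.inj hp.out.ne_zero) ?_ hO.fm.nd_top (fun _ _ => trivial) ?_
    · rw [finrank_XA]
      have h3 := hR.1
      have h4 := hR.2
      omega
    · rw [finrank_top, finrank_XA]
      exact even_two_mul _
  obtain ⟨g, hg⟩ := exists_equiv_of_hy h2 hS hN hO.symm hO.nondeg (l := 2 * k) (finrank_XA _) hd
    (iff_of_true hHy' hHy)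
  obtain ⟨T, hT, hTa, -, -⟩ := conj_of_equiv hS hN g hg hO.iso hO.pow
  have hRT := RK.conj g hTa hR
  refine ⟨T, hT, hRT.ne_one (by omega), fun W hW hWi => ?_⟩
  obtain ⟨h1, h3, h4, h5, h6⟩ := rank_facts hT hp.out.ne_zero hW hWi
  have h7 := hRT.1
  have h8 := hRT.2
  obtain ⟨s, hs⟩ : Even (finrank F W) := by
    refine ⟨finrank F (W.map (T - 1)), ?_⟩
    omega
  exact ⟨s, hs⟩

/-- Odd `d`: invariant odd-dimensional spaces have dimension `1 mod 4`. -/
theorem u2 (h2 : (2 : F) ≠ 0) (hp3 : 3 ≤ p) (hS : B.IsSymm) (hN : B.Nondegenerate) {k : ℕ}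
    (hk : 0 < k) (hd : finrank F V = 2 * (2 * k + 1)) :
    ∃ T : End F V, Oz B T p ∧ T ≠ 1 ∧ ∀ W : Submodule F V, Nd (fun u v => B u v) W → Inv T W →
      Odd (finrank F W) → finrank F W % 4 = 1 := by
  have hp2 : Odd p := hp.out.odd_of_ne_two (by omega)
  have hO₁ := Oz.prod (oz_NP (d := 2 * k) (F := F) (p := p) h2 hp3) (Oz.triv (F := F) 1 p)
  have hO₂ := Oz.triv (F := F) 1 p
  have hR₁ := RK.prod (rk_NP (F := F) (d := 2 * k) (even_two_mul k)) (rk_one (F := F) (X := Fin 1 → F))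
  have hR₂ := rk_one (F := F) (X := Fin 1 → F)
  obtain ⟨c, g, T, hc, hT, hTa, hg⟩ := exists_conj_scale h2 hS hN hO₁ hO₂ (by
    rw [Module.finrank_prod, finrank_XA, finrank_X1, hd]
    ring) (by
    rw [finrank_X1]
    exact odd_one)
  have hRT := RK.conj g hTa (RK.prod hR₁ hR₂)
  refine ⟨T, hT, hRT.ne_one (by omega), fun W hW hWi hodd => ?_⟩
  obtain ⟨h1, h3, h4, h5, h6⟩ := rank_facts hT hp.out.ne_zero hW hWi
  obtain ⟨s, hs⟩ := even_rank hT hp2 h2 hW hWi
  have h7 := hRT.1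
  have h8 := hRT.2
  obtain ⟨t, ht⟩ := hodd
  omega

/-- Odd `d`: invariant odd-dimensional spaces have dimension `3 mod 4`. -/
theorem u3 (h2 : (2 : F) ≠ 0) (hp3 : 3 ≤ p) (hS : B.IsSymm) (hN : B.Nondegenerate) {k : ℕ}
    (hd : finrank F V = 2 * (2 * k + 3)) :
    ∃ T : End F V, Oz B T p ∧ T ≠ 1 ∧ ∀ W : Submodule F V, Nd (fun u v => B u v) W → Inv T W →
      Odd (finrank F W) → finrank F W % 4 = 3 := by
  have hp2 : Odd p := hp.out.odd_of_ne_two (by omega)
  have hO₁ := Oz.prod (oz_NP (d := 2 * k) (F := F) (p := p) h2 hp3) (oz_J3 (F := F) (p := p) h2 hp3)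
  have hO₂ := oz_J3 (F := F) (p := p) h2 hp3
  have hR₁ := RK.prod (rk_NP (F := F) (d := 2 * k) (even_two_mul k)) (rk_J3 (F := F) h2)
  have hR₂ := rk_J3 (F := F) h2
  obtain ⟨c, g, T, hc, hT, hTa, hg⟩ := exists_conj_scale h2 hS hN hO₁ hO₂ (by
    rw [Module.finrank_prod, finrank_XA, finrank_X3, hd]
    ring) (by
    rw [finrank_X3]
    decide)
  have hRT := RK.conj g hTa (RK.prod hR₁ hR₂)
  refine ⟨T, hT, hRT.ne_one (by omega), fun W hW hWi hodd => ?_⟩
  obtain ⟨h1, h3, h4, h5, h6⟩ := rank_facts hT hp.out.ne_zero hW hWi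
  obtain ⟨s, hs⟩ := even_rank hT hp2 h2 hW hWi
  have h7 := hRT.1
  have h8 := hRT.2
  obtain ⟨t, ht⟩ := hodd
  omega

/-- The discriminant of a subspace on which `N² = 0` with a one-dimensional residue. -/
theorem dd_of_fixed (h2 : (2 : F) ≠ 0) {T : End F V} (h : Oz B T p) {δ : F} (hδ : δ ≠ 0)
    (hfix : ∀ v, T v = v → B v v = 0 ∨ IsSquare (δ * B v v)) {W : Submodule F V}
    (hW : Nd (fun u v => B u v) W) (hWi : Inv T W) (hN2 : finrank F ((W.map (T - 1)).map (T - 1)) = 0)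
    (hdim : finrank F W = 2 * finrank F (W.map (T - 1)) + 1) (hev : Even (finrank F (W.map (T - 1)))) :
    IsSquare (δ * dd B W) := by
  have hS := h.symm
  have hf := h.fm
  set N : End F V := T - 1 with hNdef
  set R := W.map N with hR
  have hNinv : R ≤ W := by
    rintro _ ⟨u, hu, rfl⟩
    have : N u = T u - u := rfl
    rw [this]
    exact W.sub_mem (hWi u hu) hu
  have h12 : R.map N = ⊥ := Submodule.finrank_eq_zero.mp hN2
  have hN0 : ∀ v ∈ R, N v = 0 := by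
    intro v hv
    have : N v ∈ R.map N := ⟨v, hv, rfl⟩
    rw [h12] at this
    exact (Submodule.mem_bot F).mp this
  have hTi : ∀ u v, N v = 0 → B u (T v) = B u v := by
    intro u v hv
    have : T v = v := sub_eq_zero.mp hv
    rw [this]
  have hRti : ∀ x ∈ R, ∀ y ∈ R, B x y = 0 := by
    rintro _ ⟨u, hu, rfl⟩ y hy
    have h3 : T y = y := sub_eq_zero.mp (hN0 y hy)
    have h4 := h.iso u y
    rw [h3] at h4
    change B (T u - u) y = 0
    rw [map_sub, LinearMap.sub_apply, h4, sub_self]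
  set K := W ⊓ LinearMap.ker N with hK
  have hKd : finrank F K = finrank F R + 1 := by
    have := finrank_map_add_ker N W
    change finrank F R + finrank F K = finrank F W at this
    omega
  obtain ⟨v, hvK, hvv⟩ : ∃ v ∈ K, B v v ≠ 0 := by
    by_contra hcon
    push Not at hcon
    have hti : TI (fun u v => B u v) K := by
      intro x hx y hy
      have h3 := hcon (x + y) (K.add_mem hx hy)
      simp only [map_add, LinearMap.add_apply, hcon x hx, hcon y hy, zero_add, add_zero] at h3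
      rw [hS.eq y x] at h3
      have h4 : (2 : F) * B x y = 0 := by
        rw [two_mul]
        exact h3
      exact (mul_eq_zero.mp h4).resolve_left h2
    have h3 : 2 * finrank F K ≤ finrank F W := hf.two_mul_finrank_le hW inf_le_left hti
    omega
  have hvW : v ∈ W := hvK.1
  have hTv : T v = v := sub_eq_zero.mp hvK.2
  have hv0 : v ≠ 0 := by
    rintro rfl
    simp at hvv
  have hLn : Nd (fun u v => B u v) (Submodule.span F {v}) := by
    intro x hx hh
    obtain ⟨c, rfl⟩ := Submodule.mem_span_singleton.mp hx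
    have h3 := hh v (Submodule.mem_span_singleton_self v)
    simp only [map_smul, LinearMap.smul_apply, smul_eq_mul] at h3
    have hc : c = 0 := (mul_eq_zero.mp h3).resolve_right hvv
    rw [hc, zero_smul]
  have hLW : Submodule.span F {v} ≤ W := (Submodule.span_singleton_le_iff_mem _ _).mpr hvW
  have hLd : finrank F (Submodule.span F {v}) = 1 := finrank_span_singleton hv0
  set W₁ := W ⊓ hf.orth (Submodule.span F {v}) with hW₁
  have hW₁n : Nd (fun u v => B u v) W₁ := hf.nd_inf_orth hW hLn hLW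
  have hW₁d : finrank F W₁ + 1 = finrank F W := by
    rw [hW₁, ← hLd]
    exact hf.finrank_inf_orth hW hLW
  have hRW₁ : R ≤ W₁ := by
    refine le_inf hNinv ?_
    rintro _ ⟨u, hu, rfl⟩ x hx
    obtain ⟨c, rfl⟩ := Submodule.mem_span_singleton.mp hx
    have h4 := h.iso v u
    rw [hTv] at h4
    change B (c • v) (T u - u) = 0
    rw [map_smul, LinearMap.smul_apply, map_sub, h4, sub_self, smul_zero]
  have hHy : Hy B W₁ := ⟨R, hRW₁, hRti, by omega⟩
  obtain ⟨e, he⟩ := hev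
  rw [hy_iff h2 hS hW₁n (l := finrank F R) (by omega)] at hHy
  have h3 : ((-1 : F)) ^ (finrank F R) = 1 := by
    rw [he]
    exact Even.neg_one_pow ⟨e, rfl⟩
  rw [h3, one_mul] at hHy
  have hc1 := hf.isCompl_inf_orth hLn hLW
  have hdis : Disjoint (Submodule.span F {v}) W₁ := by
    rw [disjoint_iff]
    exact hc1.2
  obtain ⟨u, hu, hu'⟩ := dd_sup (B := B) hdis (fun x hx y hy => (hf.mem_orth.mp hy.2) x hx)
    (fun x hx y hy => by
      rw [hS.eq]
      exact (hf.mem_orth.mp hy.2) x hx)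
  rw [hc1.1] at hu'
  obtain ⟨u₁, hu₁, hu₁'⟩ := dd_span (B := B) hvv hv0
  rcases hfix v hTv with h0 | hsq
  · exact absurd h0 hvv
  · rw [hu₁', ← mul_assoc, mul_comm δ, mul_assoc, isSquare_mul_self_mul hu₁] at hsq
    rw [hu']
    have h5 : δ * (u * u * (dd B (Submodule.span F {v}) * dd B W₁)) =
        u * u * ((δ * dd B (Submodule.span F {v})) * dd B W₁) := by ring
    rw [h5, isSquare_mul_self_mul hu]
    exact hsq.mul hHy

/-- Even `d`: one residue class of the dimension has a prescribed discriminant. -/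
theorem u4 (h2 : (2 : F) ≠ 0) (hp3 : 3 ≤ p) (hS : B.IsSymm) (hN : B.Nondegenerate) {k : ℕ}
    (hd : finrank F V = 2 * (2 * k + 2)) {δ : F} (hδ : δ ≠ 0) :
    ∃ T : End F V, Oz B T p ∧ T ≠ 1 ∧ ∀ W : Submodule F V, Nd (fun u v => B u v) W → Inv T W →
      finrank F W % 4 = 1 → IsSquare (δ * dd B W) := by
  have hp2 : Odd p := hp.out.odd_of_ne_two (by omega)
  have hO₁ := Oz.prod (oz_NP (d := 2 * k) (F := F) (p := p) h2 hp3) (Oz.scale (Oz.triv (F := F) 1 p) hδ)
  have hO₂ := oz_J3 (F := F) (p := p) h2 hp3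
  have hR₁ := RK.prod (rk_NP (F := F) (d := 2 * k) (even_two_mul k)) (rk_one (F := F) (X := Fin 1 → F))
  have hR₂ := rk_J3 (F := F) h2
  obtain ⟨c, g, T, hc, hT, hTa, hg⟩ := exists_conj_scale h2 hS hN hO₁ hO₂ (by
    rw [Module.finrank_prod, finrank_XA, finrank_X1, finrank_X3, hd]
    ring) (by
    rw [finrank_X3]
    decide)
  have hRT := RK.conj g hTa (RK.prod hR₁ hR₂)
  refine ⟨T, hT, hRT.ne_one (by omega), fun W hW hWi hmod => ?_⟩
  obtain ⟨h1, h3, h4, h5, h6⟩ := rank_facts hT hp.out.ne_zero hW hWi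
  obtain ⟨s, hs⟩ := even_rank hT hp2 h2 hW hWi
  have h7 := hRT.1
  have h8 := hRT.2
  refine dd_of_fixed h2 hT hδ ?_ hW hWi (by omega) (by omega) ⟨s, hs⟩
  intro v hv
  have h9 := hTa v
  rw [hv] at h9
  rcases hgv : g v with ⟨⟨a, t⟩, z⟩
  have h10 := hg v v
  rw [hgv] at h9 h10
  simp only [LinearMap.prodMap_apply, Prod.mk.injEq] at h9
  obtain ⟨⟨h11, -⟩, h12⟩ := h9
  simp only [sumForm_apply, LinearMap.smul_apply, smul_eq_mul, dotB_apply] at h10
  rw [fix_NP h2 (even_two_mul k) h11.symm, fix_NN h2 h12.symm] at h10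
  rw [← h10]
  right
  refine ⟨δ * t 0, ?_⟩
  simp
  ring

end Cfsg.Agent.Lib.ElusQ.UniMain
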