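import Cfsg.Agent.Lib.ElusQ.UniRank

/-!
# Models of unipotent isometries with prescribed ranks
-/

set_option autoImplicit false
set_option linter.unusedSectionVars false
set_option linter.style.haveILetI false
set_option linter.unusedVariables false
set_option linter.unusedSimpArgs false

open Polynomial Module QuadraticMap Matrix

universe u v w

namespace Cfsg.Agent.Lib.ElusQ.UniModel

open Cfsg Cfsg.Agent.Lib.ElusL.Basic Cfsg.Agent.Lib.ElusF.Form
  Cfsg.Agent.Lib.ElusF.Step Cfsg.Agent.Lib.ElusF.Split Cfsg.Agent.Lib.SylowLarge.SpForm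
  Cfsg.Agent.Lib.ElusQ.Disc Cfsg.Agent.Lib.ElusQ.Oz Cfsg.Agent.Lib.ElusQ.Syl Cfsg.Agent.Lib.ElusQ.OddMain
  Cfsg.Agent.Lib.ElusQ.Pos Cfsg.Agent.Lib.ElusQ.EvenV Cfsg.Agent.Lib.ElusQ.OddW Cfsg.Agent.Lib.ElusQ.Bridge
  Cfsg.Agent.Lib.ElusQ.Uni Cfsg.Agent.Lib.ElusQ.Model Cfsg.Agent.Lib.ElusQ.UniRank
  Cfsg.Agent.Lib.Witt.Quadratic Cfsg.Agent.Lib.QuadDisc.Basic Cfsg.Agent.Lib.QuadDisc.Classify
  Cfsg.Agent.Lib.Orth.Forms

variable {F : Type u} [Field F]

section Rank

variable {V₁ : Type v} [AddCommGroup V₁] [Module F V₁] {V₂ : Type w} [AddCommGroup V₂] [Module F V₂]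

/-- Rank bounds. -/
def RK (T : End F V₁) (a b : ℕ) : Prop :=
  a ≤ finrank F (LinearMap.range (T - 1)) ∧ finrank F (LinearMap.range ((T - 1) ∘ₗ (T - 1))) ≤ b

variable [FiniteDimensional F V₁] [FiniteDimensional F V₂]

theorem finrank_range_prodMap (f : V₁ →ₗ[F] V₁) (g : V₂ →ₗ[F] V₂) :
    finrank F (LinearMap.range (LinearMap.prodMap f g)) =
      finrank F (LinearMap.range f) + finrank F (LinearMap.range g) := by
  rw [LinearMap.range_prodMap]
  let e : ↥((LinearMap.range f).prod (LinearMap.range g)) ≃ₗ[F] ↥(LinearMap.range f) × ↥(LinearMap.range g) :=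
    { toFun := fun x => (⟨x.1.1, x.2.1⟩, ⟨x.1.2, x.2.2⟩)
      invFun := fun x => ⟨(x.1.1, x.2.1), ⟨x.1.2, x.2.2⟩⟩
      map_add' := fun _ _ => rfl
      map_smul' := fun _ _ => rfl
      left_inv := fun _ => rfl
      right_inv := fun _ => rfl }
  rw [e.finrank_eq, Module.finrank_prod]

theorem RK.prod {T₁ : End F V₁} {T₂ : End F V₂} {a₁ b₁ a₂ b₂ : ℕ} (h₁ : RK T₁ a₁ b₁) (h₂ : RK T₂ a₂ b₂) :
    RK (LinearMap.prodMap T₁ T₂ : End F (V₁ × V₂)) (a₁ + a₂) (b₁ + b₂) := by
  have h3 : (LinearMap.prodMap T₁ T₂ : End F (V₁ × V₂)) - 1 = LinearMap.prodMap (T₁ - 1) (T₂ - 1) := by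
    ext x <;> simp
  have h4 : ((LinearMap.prodMap T₁ T₂ : End F (V₁ × V₂)) - 1) ∘ₗ ((LinearMap.prodMap T₁ T₂ : End F (V₁ × V₂)) - 1) =
      LinearMap.prodMap ((T₁ - 1) ∘ₗ (T₁ - 1)) ((T₂ - 1) ∘ₗ (T₂ - 1)) := by
    rw [h3]
    ext x <;> simp
  unfold RK
  rw [h3, h4] at *
  constructor
  · rw [← h3, h3, finrank_range_prodMap]
    exact Nat.add_le_add h₁.1 h₂.1
  · rw [finrank_range_prodMap]
    exact Nat.add_le_add h₁.2 h₂.2

theorem RK.conj {T : End F V₁} {T' : End F V₂} {a b : ℕ} (g : V₁ ≃ₗ[F] V₂) (hg : ∀ x, g (T x) = T' (g x))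
    (h : RK T' a b) : RK T a b := by
  have h1 : ∀ x, g ((T - 1) x) = (T' - 1) (g x) := by
    intro x
    simp [hg]
  have h3 : ∀ N : End F V₁, ∀ N' : End F V₂, (∀ x, g (N x) = N' (g x)) →
      finrank F (LinearMap.range N) = finrank F (LinearMap.range N') := by
    intro N N' hN
    have h4 : (LinearMap.range N).map (g : V₁ →ₗ[F] V₂) = LinearMap.range N' := by
      ext y
      constructor
      · rintro ⟨_, ⟨x, rfl⟩, rfl⟩
        exact ⟨g x, (hN x).symm⟩
      · rintro ⟨x, rfl⟩
        refine ⟨N (g.symm x), ⟨g.symm x, rfl⟩, ?_⟩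
        change g (N (g.symm x)) = _
        rw [hN]
        simp
    rw [← h4, LinearEquiv.finrank_map_eq]
  unfold RK
  rw [h3 _ _ h1, h3 ((T - 1) ∘ₗ (T - 1)) ((T' - 1) ∘ₗ (T' - 1)) (fun x => by
    simp only [LinearMap.comp_apply]
    rw [h1, h1])]
  exact h

theorem RK.ne_one {T : End F V₁} {a b : ℕ} (h : RK T a b) (ha : 0 < a) : T ≠ 1 := by
  rintro rfl
  have h3 := h.1
  rw [sub_self, LinearMap.range_zero, finrank_bot] at h3
  omega

theorem Oz.scale {B : LinearMap.BilinForm F V₂} {T : End F V₂} {r : ℕ} (h : Oz B T r) {c : F} (hc : c ≠ 0) :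
    Oz (c • B) T r where
  symm := ⟨fun x y => by
    have := h.symm.eq x y
    simp [this]⟩
  nondeg := by
    have hrefl : (c • B).IsRefl := by
      intro x y hh
      have h3 : c * B x y = 0 := by simpa using hh
      have h4 := (mul_eq_zero.mp h3).resolve_left hc
      have h5 := h.symm.eq x y
      simp [← h5, h4]
    refine (LinearMap.IsRefl.nondegenerate_iff_separatingLeft hrefl).2 ?_
    intro x hx
    apply h.nondeg.1 x
    intro y
    have h3 : c * B x y = 0 := by simpa using hx y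
    exact (mul_eq_zero.mp h3).resolve_left hc
  iso u v := by
    simp [h.iso u v]
  pow := h.pow

theorem det_sumForm_class (B₁ : LinearMap.BilinForm F V₁) (B₂ : LinearMap.BilinForm F V₂) :
    ∃ u : F, u ≠ 0 ∧ (LinearMap.BilinForm.toMatrix (finBasis F (V₁ × V₂)) (sumForm B₁ B₂)).det =
      u * u * ((LinearMap.BilinForm.toMatrix (finBasis F V₁) B₁).det *
        (LinearMap.BilinForm.toMatrix (finBasis F V₂) B₂).det) := by
  classical
  let b := (finBasis F V₁).prod (finBasis F V₂)
  have hb : LinearMap.BilinForm.toMatrix b (sumForm B₁ B₂) =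
      Matrix.fromBlocks (LinearMap.BilinForm.toMatrix (finBasis F V₁) B₁) 0 0
        (LinearMap.BilinForm.toMatrix (finBasis F V₂) B₂) := by
    ext (i | i) (j | j) <;> simp [LinearMap.BilinForm.toMatrix_apply, b]
  obtain ⟨u, hu, h⟩ := det_gram_change b (finBasis F (V₁ × V₂)) (sumForm B₁ B₂)
  refine ⟨u, hu, ?_⟩
  rw [h, hb, Matrix.det_fromBlocks_zero₂₁]

variable {V : Type*} [AddCommGroup V] [Module F V] [FiniteDimensional F V] [Fintype F]

/-- Transporting a product with an odd-dimensional factor, which gets scaled. -/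
theorem exists_conj_scale (h2 : (2 : F) ≠ 0) {B : LinearMap.BilinForm F V} (hS : B.IsSymm) (hN : B.Nondegenerate)
    {B₁ : LinearMap.BilinForm F V₁} {B₂ : LinearMap.BilinForm F V₂} {T₁ : End F V₁} {T₂ : End F V₂} {r : ℕ}
    (h₁ : Oz B₁ T₁ r) (h₂ : Oz B₂ T₂ r) (hd : finrank F V₁ + finrank F V₂ = finrank F V)
    (hodd : Odd (finrank F V₂)) :
    ∃ (c : F) (g : V ≃ₗ[F] V₁ × V₂) (T : End F V), c ≠ 0 ∧ Oz B T r ∧
      (∀ x, g (T x) = (LinearMap.prodMap T₁ T₂ : End F (V₁ × V₂)) (g x)) ∧
      (∀ x y, sumForm B₁ (c • B₂) (g x) (g y) = B x y) := by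
  classical
  set D := (LinearMap.BilinForm.toMatrix (finBasis F V) B).det with hD
  set D₁ := (LinearMap.BilinForm.toMatrix (finBasis F V₁) B₁).det with hD₁
  set D₂ := (LinearMap.BilinForm.toMatrix (finBasis F V₂) B₂).det with hD₂
  have h0 : D ≠ 0 := (nondegenerate_iff_det (finBasis F V) B).mp hN
  have h01 : D₁ ≠ 0 := (nondegenerate_iff_det (finBasis F V₁) B₁).mp h₁.nondeg
  have h02 : D₂ ≠ 0 := (nondegenerate_iff_det (finBasis F V₂) B₂).mp h₂.nondeg
  set c : F := D * D₁ * D₂ with hc
  have hc0 : c ≠ 0 := mul_ne_zero (mul_ne_zero h0 h01) h02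
  have hO := Oz.prod h₁ (Oz.scale h₂ hc0)
  obtain ⟨k, hk⟩ := hodd
  obtain ⟨u, hu, hu'⟩ := det_sumForm_class B₁ (c • B₂)
  have hdet₂ : (LinearMap.BilinForm.toMatrix (finBasis F V₂) (c • B₂)).det = c ^ (2 * k + 1) * D₂ := by
    rw [map_smul, Matrix.det_smul]
    simp [hk, hD₂]
  obtain ⟨g, hg⟩ := exists_isometry h2 B (sumForm B₁ (c • B₂)) hN hO.nondeg hS hO.symm (by
    rw [Module.finrank_prod, hd]) (by
    rw [hu', hdet₂, pow_succ, pow_mul]
    refine ⟨u * (c ^ k) ^ 1 * c, ?_⟩
    rw [← hD]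
    simp only [hc, pow_one, hD, hD₁]
    ring_nf)
  obtain ⟨T, hT, hTa, -, -⟩ := conj_of_equiv hS hN g hg hO.iso hO.pow
  exact ⟨c, g, T, hc0, hT, hTa, hg⟩

end Rank

section Blocks

variable {d : ℕ}

/-- The nilpotent part on the hyperbolic form. -/
noncomputable def NP (A : Fin d → Fin d → F) : End F (Fin d ⊕ Fin d → F) where
  toFun v k := match k with
    | .inl i => ∑ j, A i j * v (.inr j)
    | .inr _ => 0
  map_add' u v := by
    funext k
    rcases k with i | i
    · simp [mul_add, Finset.sum_add_distrib]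
    · simp
  map_smul' c v := by
    funext k
    rcases k with i | i
    · simp [Finset.mul_sum, mul_left_comm]
    · simp

@[simp] theorem NP_inl (A : Fin d → Fin d → F) (v) (i : Fin d) : NP A v (.inl i) = ∑ j, A i j * v (.inr j) := rfl
@[simp] theorem NP_inr (A : Fin d → Fin d → F) (v) (i : Fin d) : NP A v (.inr i) = 0 := rfl

theorem NP_iso (h2 : (2 : F) ≠ 0) {A : Fin d → Fin d → F} (hA : ∀ i j, A i j = - A j i) (v) :
    quadFormPlus d F (v + NP A v) = quadFormPlus d F v := by
  have hsk : ∑ i, ∑ j, A i j * v (.inr j) * v (.inr i) = 0 := by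
    have h1 : ∑ i, ∑ j, A i j * v (.inr j) * v (.inr i) =
        - ∑ i, ∑ j, A i j * v (.inr j) * v (.inr i) := by
      conv_lhs => rw [Finset.sum_comm]
      rw [← Finset.sum_neg_distrib]
      refine Finset.sum_congr rfl fun i _ => ?_
      rw [← Finset.sum_neg_distrib]
      refine Finset.sum_congr rfl fun j _ => ?_
      rw [hA j i]
      ring
    have h3 : (2 : F) * ∑ i, ∑ j, A i j * v (.inr j) * v (.inr i) = 0 := by
      rw [two_mul]
      nth_rewrite 1 [h1]
      ring
    exact (mul_eq_zero.mp h3).resolve_left h2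
  simp only [quadFormPlus, Pi.add_apply, NP_inl, NP_inr, add_zero]
  simp_rw [add_mul, Finset.sum_mul]
  rw [Finset.sum_add_distrib, hsk, add_zero]

theorem NP_sq (A : Fin d → Fin d → F) (v) : NP A (NP A v) = 0 := by
  funext k
  rcases k with i | i <;> simp

/-- Unit vectors of the first kind are in the range when `d` is even. -/
theorem single_inl_mem (hd : Even d) (i : Fin d) :
    (Pi.single (.inl i) 1 : Fin d ⊕ Fin d → F) ∈ LinearMap.range (NP (pA : Fin d → Fin d → F)) := by
  rcases Nat.even_or_odd (i : ℕ) with he | ho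
  · have hlt : (i : ℕ) + 1 < d := by
      have h3 := i.isLt
      by_contra h
      have h4 : (i : ℕ) + 1 = d := by omega
      have : Odd d := by
        rw [← h4]
        exact he.add_one
      exact (Nat.not_even_iff_odd.mpr this) hd
    let j : Fin d := ⟨i + 1, hlt⟩
    refine ⟨Pi.single (.inr j) 1, ?_⟩
    funext k
    rcases k with k | k
    · simp only [NP_inl, Pi.single_apply, Sum.inr.injEq, mul_ite, mul_one, mul_zero, Finset.sum_ite_eq',
        Finset.mem_univ, if_true, Sum.inl.injEq]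
      unfold pA
      by_cases hk : k = i
      · subst hk
        simp [j, he]
      · have h3 : ¬ ((k : ℕ) + 1 = (j : ℕ)) := by
          intro h
          apply hk
          apply Fin.ext
          change (k : ℕ) + 1 = (i : ℕ) + 1 at h
          omega
        have h4 : ¬ Even (j : ℕ) := by
          intro h
          have h3 : Even ((i : ℕ) + 1) := h
          rw [Nat.even_add_one] at h3
          exact h3 he
        simp [hk, h3, h4]
    · simp
  · have hpos : 1 ≤ (i : ℕ) := ho.pos
    let j : Fin d := ⟨i - 1, by have := i.isLt; omega⟩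
    have hjv : (j : ℕ) + 1 = i := by
      change (i : ℕ) - 1 + 1 = i
      omega
    have hje : Even (j : ℕ) := by
      have h3 : Odd ((j : ℕ) + 1) := by rw [hjv]; exact ho
      by_contra h
      rw [Nat.not_even_iff_odd] at h
      exact (Nat.not_even_iff_odd.mpr h3) h.add_one
    refine ⟨- Pi.single (.inr j) 1, ?_⟩
    rw [map_neg]
    funext k
    rcases k with k | k
    · simp only [Pi.neg_apply, NP_inl, Pi.single_apply, Sum.inr.injEq, mul_ite, mul_one, mul_zero, Finset.sum_ite_eq',
        Finset.mem_univ, if_true, Sum.inl.injEq]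
      unfold pA
      by_cases hk : k = i
      · subst hk
        have h3 : ¬ ((k : ℕ) + 1 = (j : ℕ)) := by omega
        simp [h3, hjv, hje]
      · have h3 : ¬ ((k : ℕ) + 1 = (j : ℕ) ∧ Even (k : ℕ)) := by
          rintro ⟨h, h5⟩
          have : Odd ((k : ℕ) + 1) := h5.add_one
          rw [h] at this
          exact (Nat.not_even_iff_odd.mpr this) hje
        have h4 : ¬ ((j : ℕ) + 1 = k ∧ Even (j : ℕ)) := by
          rintro ⟨h, -⟩
          apply hk
          apply Fin.ext
          omega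
        simp [hk, h3, h4]
    · simp

theorem rk_NP (hd : Even d) : RK (1 + NP (pA : Fin d → Fin d → F)) d 0 := by
  have h1 : (1 + NP (pA : Fin d → Fin d → F)) - 1 = NP pA := add_sub_cancel_left _ _
  unfold RK
  rw [h1]
  constructor
  · have := le_finrank_of_single (F := F) (fun i : Fin d => (Sum.inl i : Fin d ⊕ Fin d))
      (fun a b h => by simpa using h) (LinearMap.range (NP (pA : Fin d → Fin d → F)))
      (fun i => single_inl_mem hd i)
    simpa using this
  · have h3 : LinearMap.range ((NP (pA : Fin d → Fin d → F)) ∘ₗ (NP pA)) = ⊥ := by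
      rw [LinearMap.range_eq_bot]
      apply LinearMap.ext
      intro v
      exact NP_sq _ v
    rw [h3, finrank_bot]

theorem rk_NN (h2 : (2 : F) ≠ 0) [Fintype F] (hd : Odd d) : RK (1 + NN (pA : Fin d → Fin d → F) pa) (d + 1) 1 := by
  have h1 : (1 + NN (pA : Fin d → Fin d → F) pa) - 1 = NN pA pa := add_sub_cancel_left _ _
  unfold RK
  rw [h1]
  obtain ⟨k, hk⟩ := hd
  let l : Fin d := ⟨2 * k, by omega⟩
  have hl : (l : ℕ) + 1 = d := by
    change 2 * k + 1 = d
    omega
  have hodd : Odd d := ⟨k, hk⟩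
  constructor
  · have := le_finrank_of_single (F := F)
      (Sum.elim (fun u : Unit => (Sum.inl u : Unit ⊕ (Fin d ⊕ Fin d))) (fun i : Fin d => (Sum.inr (Sum.inl i) : Unit ⊕ (Fin d ⊕ Fin d))))
      (by
        rintro (a | a) (b | b) h
        · simp
        · simp at h
        · simp at h
        · simpa using h) (LinearMap.range (NN (pA : Fin d → Fin d → F) pa))
      (by
        rintro (u | i)
        · exact single_u_mem h2 hl hodd
        · by_cases h : i = l
          · subst h
            exact single_last_mem h2 hl hodd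
          · exact single_x_mem i (by
              rintro ⟨h1, -⟩
              apply h
              apply Fin.ext
              omega))
    simp at this
    omega
  · have h3 : LinearMap.range ((NN (pA : Fin d → Fin d → F) pa) ∘ₗ (NN pA pa)) ≤
        Submodule.span F {(Pi.single (.inr (.inl l)) 1 : Unit ⊕ (Fin d ⊕ Fin d) → F)} := by
      rintro _ ⟨v, rfl⟩
      rw [Submodule.mem_span_singleton]
      refine ⟨-2 * ∑ j, pa j * v (.inr (.inr j)), ?_⟩
      change _ = NN pA pa (NN pA pa v)
      rw [NN_sq]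
      funext k
      rcases k with _ | k | k
      · simp
      · by_cases hk : k = l
        · subst hk
          simp [pa_last hl hodd, Pi.single_apply]
        · simp [pa_ne_last hl hk, hk, Pi.single_apply]
      · simp
    refine (Submodule.finrank_mono h3).trans ?_
    exact (finrank_span_le_card _).trans (by simp)

variable {p : ℕ} [hp : Fact p.Prime] [CharP F p]

omit hp in
theorem pow_char_of_cube (hp' : p.Prime) {V : Type*} [AddCommGroup V] [Module F V]
    (N : End F V) (hp3 : 3 ≤ p) (hN : N ^ 3 = 0) : (1 + N) ^ p = 1 := by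
  haveI : Fact p.Prime := ⟨hp'⟩
  rcases subsingleton_or_nontrivial V with hs | hn
  · exact Subsingleton.elim _ _
  · haveI : CharP (End F V) p := charP_of_injective_algebraMap (algebraMap F _).injective p
    rw [add_pow_char_of_commute p (Commute.one_left _), one_pow, pow_eq_zero_of_le hp3 hN, add_zero]

theorem oz_NP [Fintype F] (h2 : (2 : F) ≠ 0) (hp3 : 3 ≤ p) :
    Oz (polarBilin (plusForm d F)) (1 + NP (pA : Fin d → Fin d → F)) p := by
  refine ⟨polar_symm _, plusForm_nondeg d, ?_, ?_⟩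
  · intro u v
    apply polar_eq_of_preserves (Q := plusForm d F)
    intro w
    exact NP_iso h2 pA_skew w
  · apply pow_char_of_cube hp.out _ hp3
    apply LinearMap.ext
    intro v
    simp only [pow_succ, pow_zero, one_mul, Module.End.mul_apply, NP_sq]
    simp

section Fixed

variable {V : Type*} [AddCommGroup V] [Module F V]

theorem fixed_orth_range {B : LinearMap.BilinForm F V} {T : End F V} (h : ∀ u v, B (T u) (T v) = B u v) {v : V} (hv : T v = v)
    {y : V} (hy : y ∈ LinearMap.range (T - 1)) : B y v = 0 := by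
  obtain ⟨u, rfl⟩ := hy
  have h3 := h u v
  rw [hv] at h3
  change B (T u - u) v = 0
  rw [map_sub, LinearMap.sub_apply, h3, sub_self]

end Fixed

variable [Fintype F]

/-- Fixed vectors of the model with even `d` are isotropic. -/
theorem fix_NP (h2 : (2 : F) ≠ 0) (hd : Even d) {v : Fin d ⊕ Fin d → F}
    (hv : (1 + NP (pA : Fin d → Fin d → F)) v = v) :
    polarBilin (plusForm d F) v v = 0 := by
  have hO : ∀ u v, polarBilin (plusForm d F) ((1 + NP (pA : Fin d → Fin d → F)) u) ((1 + NP (pA : Fin d → Fin d → F)) v) =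
      polarBilin (plusForm d F) u v := by
    intro u v
    apply polar_eq_of_preserves (Q := plusForm d F)
    intro w
    exact NP_iso h2 pA_skew w
  have hy : ∀ j, v (.inr j) = 0 := by
    intro j
    have h1 : (Pi.single (.inl j) 1 : Fin d ⊕ Fin d → F) ∈ LinearMap.range ((1 + NP (pA : Fin d → Fin d → F)) - 1) := by
      rw [add_sub_cancel_left]
      exact single_inl_mem hd j
    have h3 := fixed_orth_range hO hv h1
    have h4 := (Cfsg.Agent.Lib.Orth.Words.plus_pair (F := F) d j).pa v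
    rw [(polar_symm (plusForm d F)).eq] at h3
    exact h4.symm.trans h3
  rw [Cfsg.Agent.Lib.ElusQ.Syl.polar_self']
  have : plusForm d F v = 0 := by
    change ∑ i, v (.inl i) * v (.inr i) = 0
    exact Finset.sum_eq_zero fun i _ => by rw [hy i, mul_zero]
  rw [this, mul_zero]

/-- Fixed vectors of the `J₃` block are isotropic. -/
theorem fix_NN (h2 : (2 : F) ≠ 0) {v : Unit ⊕ (Fin 1 ⊕ Fin 1) → F}
    (hv : (1 + NN (pA : Fin 1 → Fin 1 → F) pa) v = v) :
    polarBilin (oddForm 1 F) v v = 0 := by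
  have hO : ∀ u v, polarBilin (oddForm 1 F) ((1 + NN (pA : Fin 1 → Fin 1 → F) pa) u) ((1 + NN (pA : Fin 1 → Fin 1 → F) pa) v) =
      polarBilin (oddForm 1 F) u v := by
    intro u v
    apply polar_eq_of_preserves (Q := oddForm 1 F)
    intro w
    exact NN_iso h2 pA_skew pa w
  let l : Fin 1 := 0
  have hl : (l : ℕ) + 1 = 1 := rfl
  have hy : v (.inr (.inr l)) = 0 := by
    have h1 : (Pi.single (.inr (.inl l)) 1 : Unit ⊕ (Fin 1 ⊕ Fin 1) → F) ∈
        LinearMap.range ((1 + NN (pA : Fin 1 → Fin 1 → F) pa) - 1) := by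
      rw [add_sub_cancel_left]
      exact single_last_mem h2 hl odd_one
    have h3 := fixed_orth_range hO hv h1
    have h4 := (Cfsg.Agent.Lib.Orth.Words.odd_pair (F := F) 1 l).pa v
    rw [(polar_symm (oddForm 1 F)).eq] at h3
    exact h4.symm.trans h3
  have hx : v (.inl ()) = 0 := by
    have h1 : (Pi.single (.inl ()) 1 : Unit ⊕ (Fin 1 ⊕ Fin 1) → F) ∈
        LinearMap.range ((1 + NN (pA : Fin 1 → Fin 1 → F) pa) - 1) := by
      rw [add_sub_cancel_left]
      exact single_u_mem h2 hl odd_one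
    have h3 := fixed_orth_range hO hv h1
    -- compute the polar form
    have h5 : polarBilin (oddForm 1 F) (Pi.single (.inl ()) 1) v = 2 * v (.inl ()) := by
      change polar (quadFormOdd 1 F) _ _ = _
      simp [QuadraticMap.polar, quadFormOdd, Pi.single_apply, Fin.sum_univ_succ]
      ring
    rw [h5] at h3
    exact (mul_eq_zero.mp h3).resolve_left h2
  rw [Cfsg.Agent.Lib.ElusQ.Syl.polar_self']
  have : oddForm 1 F v = 0 := by
    change v (.inl ()) ^ 2 + ∑ i : Fin 1, v (.inr (.inl i)) * v (.inr (.inr i)) = 0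
    rw [hx]
    simp only [Fin.sum_univ_succ, Fin.sum_univ_zero]
    have : (0 : Fin 1) = l := rfl
    rw [this, hy]
    simp
  rw [this, mul_zero]

end Blocks

end Cfsg.Agent.Lib.ElusQ.UniModel
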