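import Cfsg.Agent.Lib.ElusQ.SqNegMain

/-!
# Rank conditions for unipotent isometries and invariant nondegenerate subspaces
-/

set_option autoImplicit false
set_option linter.unusedSectionVars false
set_option linter.style.haveILetI false
set_option linter.unusedVariables false
set_option linter.unusedSimpArgs false

open Polynomial Module QuadraticMap Matrix

universe u v w

namespace Cfsg.Agent.Lib.ElusQ.UniRank

open Cfsg Cfsg.Agent.Lib.ElusL.Basic Cfsg.Agent.Lib.ElusF.Form
  Cfsg.Agent.Lib.ElusF.Step Cfsg.Agent.Lib.ElusF.Split Cfsg.Agent.Lib.SylowLarge.SpForm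
  Cfsg.Agent.Lib.ElusQ.Disc Cfsg.Agent.Lib.ElusQ.Oz Cfsg.Agent.Lib.ElusQ.Syl Cfsg.Agent.Lib.ElusQ.OddMain
  Cfsg.Agent.Lib.ElusQ.Pos Cfsg.Agent.Lib.ElusQ.EvenV Cfsg.Agent.Lib.ElusQ.OddW Cfsg.Agent.Lib.ElusQ.Bridge
  Cfsg.Agent.Lib.ElusQ.Uni Cfsg.Agent.Lib.ElusQ.Model
  Cfsg.Agent.Lib.Witt.Quadratic Cfsg.Agent.Lib.QuadDisc.Basic Cfsg.Agent.Lib.QuadDisc.Classify

variable {F : Type u} [Field F] {V : Type v} [AddCommGroup V] [Module F V]
  [FiniteDimensional F V]

/-- A nondegenerate alternating form lives on an even-dimensional space. -/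
theorem even_of_alt {Y : Type*} [AddCommGroup Y] [Module F Y] [FiniteDimensional F Y] (h2 : (2 : F) ≠ 0)
    (φ : LinearMap.BilinForm F Y) (halt : ∀ u, φ u u = 0) (hsep : ∀ u, (∀ v, φ u v = 0) → u = 0) :
    Even (finrank F Y) := by
  classical
  have hskew : ∀ u v, φ u v = - φ v u := by
    intro u v
    have h1 := halt (u + v)
    simp only [map_add, LinearMap.add_apply, halt, zero_add, add_zero] at h1
    exact eq_neg_of_add_eq_zero_right h1
  have hrefl : φ.IsRefl := by
    intro x y h
    rw [hskew, h, neg_zero]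
  have hnd : φ.Nondegenerate := (LinearMap.IsRefl.nondegenerate_iff_separatingLeft hrefl).2 hsep
  set A := LinearMap.BilinForm.toMatrix (finBasis F Y) φ with hA
  have hdet : A.det ≠ 0 := (nondegenerate_iff_det (finBasis F Y) φ).mp hnd
  have htr : Aᵀ = - A := by
    ext i j
    simp only [Matrix.transpose_apply, Matrix.neg_apply, hA, LinearMap.BilinForm.toMatrix_apply]
    exact hskew _ _
  have h3 : A.det = (-1) ^ (finrank F Y) * A.det := by
    conv_lhs => rw [← Matrix.det_transpose, htr]
    rw [Matrix.det_neg]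
    simp
  have h4 : ((-1 : F)) ^ (finrank F Y) = 1 := by
    apply mul_right_cancel₀ hdet
    rw [one_mul]
    exact h3.symm
  by_contra hodd
  rw [Nat.not_even_iff_odd] at hodd
  rw [hodd.neg_one_pow] at h4
  apply h2
  linear_combination (-1 : F) * h4

variable {B : LinearMap.BilinForm F V} {T : End F V} {p : ℕ}

/-- The rank of `T - 1` on an invariant nondegenerate subspace is even. -/
theorem even_rank (h : Oz B T p) (hp : Odd p) (h2 : (2 : F) ≠ 0) {W : Submodule F V}
    (hW : Nd (fun u v => B u v) W) (hWi : Inv T W) : Even (finrank F (W.map (T - 1))) := by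
  classical
  have hS := h.symm
  have hp0 : 0 < p := hp.pos
  set S : End F V := T ^ (p - 1) with hSdef
  have hTS : ∀ v, T (S v) = v := by
    intro v
    have h1 : T * S = 1 := by
      rw [hSdef, ← pow_succ', Nat.sub_add_cancel hp0, h.pow]
    have := congrArg (fun f : End F V => f v) h1
    simpa using this
  have hST : ∀ v, S (T v) = v := by
    intro v
    have h1 : S * T = 1 := by
      rw [hSdef, ← pow_succ, Nat.sub_add_cancel hp0, h.pow]
    have := congrArg (fun f : End F V => f v) h1
    simpa using this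
  have hSi : Inv S W := by
    intro v hv
    have h1 : ∀ k : ℕ, (T ^ k) v ∈ W := by
      intro k
      induction k with
      | zero => simpa using hv
      | succ k ih =>
        rw [pow_succ']
        exact hWi _ ih
    exact h1 _
  set C : End F V := T - S with hC
  have hCi : Inv C W := fun v hv => W.sub_mem (hWi v hv) (hSi v hv)
  -- adjoint relations
  have hadjT : ∀ u v, B u (T v) = B (S u) v := by
    intro u v
    have := h.iso (S u) v
    rw [hTS] at this
    exact this
  have hadjS : ∀ u v, B u (S v) = B (T u) v := by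
    intro u v
    have := h.iso u (S v)
    rw [hTS] at this
    exact this.symm
  have hadjC : ∀ u v, B u (C v) = - B (C u) v := by
    intro u v
    simp only [hC, LinearMap.sub_apply, map_sub, hadjT, hadjS]
    ring
  have halt : ∀ u, B u (C u) = 0 := by
    intro u
    have h3 := hadjC u u
    rw [hS.eq (C u) u] at h3
    have h4 : (2 : F) * B u (C u) = 0 := by
      rw [two_mul]
      nth_rewrite 1 [h3]
      ring
    exact (mul_eq_zero.mp h4).resolve_left h2
  -- the kernel
  set N : End F V := T - 1 with hN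
  set K := W ⊓ LinearMap.ker N with hK
  have hK2 : ∀ v, C v = 0 → N v = 0 := by
    intro v hv
    have h3 : T v = S v := sub_eq_zero.mp hv
    have h4 : T (T v) = v := by rw [h3, hTS]
    have h5 : ∀ k : ℕ, (T ^ (2 * k)) v = v := by
      intro k
      induction k with
      | zero => simp
      | succ k ih =>
        rw [show 2 * (k + 1) = 2 * k + 1 + 1 by ring, pow_succ, pow_succ, Module.End.mul_apply, Module.End.mul_apply, h4, ih]
    obtain ⟨k, hk⟩ := hp
    have h6 : (T ^ (2 * k + 1)) v = v := by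
      rw [← hk, h.pow]
      rfl
    rw [pow_succ', Module.End.mul_apply, h5] at h6
    change T v - v = 0
    rw [h6, sub_self]
  have hK3 : ∀ v, N v = 0 → C v = 0 := by
    intro v hv
    have h3 : T v = v := sub_eq_zero.mp hv
    have h4 : S v = v := by
      conv_lhs => rw [← h3]
      exact hST v
    change T v - S v = 0
    rw [h3, h4, sub_self]
  -- a complement
  obtain ⟨Y₀, hY₀⟩ := Submodule.exists_isCompl K
  set Y := W ⊓ Y₀ with hY
  have hKW : K ≤ W := inf_le_left
  have hYK : Y ⊓ K = ⊥ := by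
    rw [eq_bot_iff, ← hY₀.inf_eq_bot]
    rintro v ⟨⟨-, h3⟩, h4⟩
    exact ⟨h4, h3⟩
  have hsup : K ⊔ Y = W := by
    rw [hY, inf_comm, ← sup_inf_assoc_of_le _ hKW, hY₀.sup_eq_top, top_inf_eq]
  have hdim : finrank F Y = finrank F (W.map N) := by
    have h3 := finrank_map_add_ker N W
    have h4 := Submodule.finrank_sup_add_finrank_inf_eq K Y
    rw [hsup, inf_comm, hYK, finrank_bot, add_zero] at h4
    have h5 : finrank F K = finrank F ↥(W ⊓ LinearMap.ker N) := rfl
    omega
  rw [← hdim]
  refine even_of_alt h2 (LinearMap.BilinForm.restrict (B.compl₂ C) Y) (fun u => halt _) ?_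
  rintro ⟨y, hyY⟩ hy
  apply Subtype.ext
  change y = 0
  have hyW : y ∈ W := hyY.1
  have h3 : ∀ v ∈ W, B y (C v) = 0 := by
    intro v hv
    have hv' : v ∈ K ⊔ Y := by rw [hsup]; exact hv
    obtain ⟨k, hk, z, hz, rfl⟩ := Submodule.mem_sup.mp hv'
    rw [map_add, map_add]
    have h4 : C k = 0 := hK3 k hk.2
    rw [h4, map_zero, zero_add]
    exact hy ⟨z, hz⟩
  have h4 : C y = 0 := by
    apply hW (C y) (hCi y hyW)
    intro v hv
    have := h3 v hv
    rw [hadjC] at this
    exact neg_eq_zero.mp this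
  have h5 : y ∈ K := ⟨hyW, hK2 y h4⟩
  have h6 : y ∈ Y ⊓ K := ⟨hyY, h5⟩
  rw [hYK] at h6
  exact (Submodule.mem_bot F).mp h6

/-- The numerical facts on an invariant nondegenerate subspace and its complement. -/
theorem rank_facts (h : Oz B T p) (hp : p ≠ 0) {W : Submodule F V}
    (hW : Nd (fun u v => B u v) W) (hWi : Inv T W) :
    finrank F W + finrank F (h.fm.orth W) = finrank F V ∧
    finrank F (LinearMap.range (T - 1)) ≤ finrank F (W.map (T - 1)) + finrank F ((h.fm.orth W).map (T - 1)) ∧
    finrank F ((W.map (T - 1)).map (T - 1)) + finrank F (((h.fm.orth W).map (T - 1)).map (T - 1)) ≤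
      finrank F (LinearMap.range ((T - 1) ∘ₗ (T - 1))) ∧
    2 * finrank F (W.map (T - 1)) ≤ finrank F W + finrank F ((W.map (T - 1)).map (T - 1)) ∧
    2 * finrank F ((h.fm.orth W).map (T - 1)) ≤ finrank F (h.fm.orth W) +
      finrank F (((h.fm.orth W).map (T - 1)).map (T - 1)) := by
  have hf := h.fm
  set N : End F V := T - 1 with hNdef
  set W' := hf.orth W with hW'
  have hinv' : Inv T W' := hf.inv_orth h.iso (h.inj hp) hWi
  have hc := hf.isCompl_orth hW
  have hNinv : ∀ {U : Submodule F V}, Inv T U → U.map N ≤ U := by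
    intro U hU
    rintro _ ⟨u, hu, rfl⟩
    have : N u = T u - u := rfl
    rw [this]
    exact U.sub_mem (hU u hu) hu
  refine ⟨Submodule.finrank_add_eq_of_isCompl hc, ?_, ?_, rank_ineq N W (hNinv hWi), rank_ineq N W' (hNinv hinv')⟩
  · have h5 : LinearMap.range N = W.map N ⊔ W'.map N := by
      rw [← Submodule.map_sup, hc.sup_eq_top, Submodule.map_top]
    rw [h5]
    exact Submodule.finrank_add_le_finrank_add_finrank _ _
  · have h6 : (W.map N).map N ≤ W := (Submodule.map_mono (hNinv hWi)).trans (hNinv hWi)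
    have h7 : (W'.map N).map N ≤ W' := (Submodule.map_mono (hNinv hinv')).trans (hNinv hinv')
    have h8 : (W.map N).map N ⊓ (W'.map N).map N = ⊥ := by
      rw [eq_bot_iff, ← hc.inf_eq_bot]
      exact inf_le_inf h6 h7
    have h9 := Submodule.finrank_sup_add_finrank_inf_eq ((W.map N).map N) ((W'.map N).map N)
    rw [h8, finrank_bot, add_zero] at h9
    rw [← h9]
    apply Submodule.finrank_mono
    apply sup_le
    · rintro _ ⟨_, ⟨u, _, rfl⟩, rfl⟩
      exact ⟨u, rfl⟩
    · rintro _ ⟨_, ⟨u, _, rfl⟩, rfl⟩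
      exact ⟨u, rfl⟩

end Cfsg.Agent.Lib.ElusQ.UniRank
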